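import Cfsg.Agent.H56.KleinIsometryCore
import Cfsg.Prelude.Def_BlockLocal

/-!
# Perfect isometries from tables of singular values

Two sets of characters whose values on singular elements expand over one table of columns, with equal
signed rows, are perfectly isometric when the products of the columns are divisible by the order of the
defect group.
-/

set_option autoImplicit false

open scoped ComplexConjugate

namespace Cfsg.Agent.H57.Cyclic

open Cfsg.Agent.H42 (blockFinset mem_blockFinset)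

universe u v w

/-- The values on singular elements of a set of characters expanded over columns indexed by `O`. -/
structure Table {G : Type u} [Group G] [Fintype G] (p : ℕ) (M : Ideal Cfsg.AlgInt) (q : ℕ)
    (B : Set (Cfsg.IrrCharacter G)) (O : Type w) (D : Cfsg.IrrCharacter G → O → ℂ) : Prop where
  expand : ∀ x : G, p ∣ orderOf x → ∃ (n : ℕ) (o : Fin n → O) (φ : Fin n → ℂ),
    (∀ i, IsIntegral ℤ (φ i)) ∧
    (∀ i, Cfsg.MemLocalRing M
      ((q : ℂ) * φ i / (Nat.card (Subgroup.centralizer ({x} : Set G)) : ℂ))) ∧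
    ∀ χ ∈ B, (χ : G → ℂ) x = ∑ i, D χ (o i) * φ i
  orth : ∀ s : G, ¬ p ∣ orderOf s → ∀ o, ∑ χ ∈ blockFinset B, (χ : G → ℂ) s * D χ o = 0

variable {G : Type u} [Group G] [Fintype G] {H : Type v} [Group H] [Fintype H] {p : ℕ} [Fact p.Prime]
  {M : Ideal Cfsg.AlgInt}

/-- Two tables with the same signed rows give a perfect isometry. -/
theorem isPerfectIsometry_of_tables (hM : Cfsg.IsPModular p M) {q : ℕ} (hq : 0 < q)
    {B : Set (Cfsg.IrrCharacter G)} {c : Set (Cfsg.IrrCharacter H)} {O : Type w}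
    {DG : Cfsg.IrrCharacter G → O → ℂ} {DH : Cfsg.IrrCharacter H → O → ℂ}
    (tG : Table p M q B O DG) (tH : Table p M q c O DH)
    {I : Cfsg.IrrCharacter H → Cfsg.IrrCharacter G} {ε : Cfsg.IrrCharacter H → ℤ}
    (hI : Set.BijOn I c B) (hε : ∀ η ∈ c, ε η = 1 ∨ ε η = -1)
    (hD : ∀ η ∈ c, ∀ o, DG (I η) o = (ε η : ℂ) * DH η o)
    (hq' : ∀ o o', Cfsg.MemLocalRing M ((∑ η ∈ blockFinset c, DH η o * DH η o') / (q : ℂ))) :
    Cfsg.IsPerfectIsometry p M c B I ε := by
  classical
  have := hM.2.1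
  have hsq : ∀ η ∈ c, (ε η : ℂ) * (ε η : ℂ) = 1 := fun η h => by
    rcases hε η h with e | e <;> simp [e]
  have hre : ∀ F : Cfsg.IrrCharacter G → ℂ,
      ∑ η ∈ blockFinset c, F (I η) = ∑ χ ∈ blockFinset B, F χ := fun F =>
    Finset.sum_bij (fun η _ => I η) (fun η h => mem_blockFinset.2 (hI.1 (mem_blockFinset.1 h)))
      (fun η h η' h' e => hI.2.1 (mem_blockFinset.1 h) (mem_blockFinset.1 h') e)
      (fun χ h => by
        obtain ⟨η, h1, h2⟩ := hI.2.2 (mem_blockFinset.1 h)
        exact ⟨η, mem_blockFinset.2 h1, h2⟩)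
      (fun _ _ => rfl)
  set μ := Cfsg.signedBijectionKernel c I ε with hμ
  have hμe : ∀ x y, μ x y =
      ∑ η ∈ blockFinset c, (ε η : ℂ) * (I η : G → ℂ) x * (η : H → ℂ) y := fun x y => by
    rw [hμ, Cfsg.signedBijectionKernel, finsum_mem_eq_finite_toFinset_sum _ (Set.toFinite _)]
    exact Finset.sum_congr (by ext η; simp [mem_blockFinset]) fun _ _ => rfl
  -- values on mixed pairs
  have hmix : ∀ (x : G) (y : H), ¬ (¬ p ∣ orderOf x ↔ ¬ p ∣ orderOf y) → μ x y = 0 := by
    intro x y hxy
    by_cases hx : p ∣ orderOf x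
    · have hy : ¬ p ∣ orderOf y := fun hy => hxy ⟨fun h => absurd hx h, fun h => absurd hy h⟩
      obtain ⟨n, o, φ, -, -, hv⟩ := tG.expand x hx
      calc μ x y = ∑ i, φ i * ∑ η ∈ blockFinset c, (η : H → ℂ) y * DH η (o i) := by
            rw [hμe]
            simp only [Finset.mul_sum]
            rw [Finset.sum_comm]
            refine Finset.sum_congr rfl fun η hη => ?_
            have hη' := mem_blockFinset.1 hη
            rw [hv _ (hI.1 hη'), Finset.mul_sum, Finset.sum_mul]
            refine Finset.sum_congr rfl fun i _ => ?_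
            rw [hD η hη' (o i)]
            linear_combination (φ i * (η : H → ℂ) y * DH η (o i)) * hsq η hη'
        _ = 0 := Finset.sum_eq_zero fun i _ => by rw [tH.orth y hy, mul_zero]
    · have hy : p ∣ orderOf y := by
        by_contra h
        exact hxy ⟨fun _ => h, fun _ => hx⟩
      obtain ⟨n, o, φ, -, -, hv⟩ := tH.expand y hy
      calc μ x y = ∑ i, φ i * ∑ χ ∈ blockFinset B, (χ : G → ℂ) x * DG χ (o i) := by
            rw [hμe]
            simp only [Finset.mul_sum]
            rw [Finset.sum_comm]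
            simp only [← hre, Finset.sum_comm (γ := Fin n)]
            refine Finset.sum_congr rfl fun η hη => ?_
            have hη' := mem_blockFinset.1 hη
            rw [hv _ hη', Finset.mul_sum]
            refine Finset.sum_congr rfl fun i _ => ?_
            rw [hD η hη' (o i)]
            ring
        _ = 0 := Finset.sum_eq_zero fun i _ => by rw [tG.orth x hx, mul_zero]
  have hint : ∀ {K : Type _} [Group K] [Finite K] (z : ℤ) (χ : Cfsg.IrrCharacter K) (g : K),
      IsIntegral ℤ ((z : ℂ) * (χ : K → ℂ) g) := fun z χ g =>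
    (H42.isIntegral_intCast z).mul (H42.isIntegral_value (H26.irr_isCharacter χ) g)
  refine ⟨hI, hε, fun x y => ?_⟩
  change Cfsg.MemLocalRing M (μ x y / _) ∧ Cfsg.MemLocalRing M (μ x y / _) ∧
    ((¬ p ∣ orderOf x ↔ ¬ p ∣ orderOf y) ∨ μ x y = 0)
  by_cases hxy : (¬ p ∣ orderOf x ↔ ¬ p ∣ orderOf y)
  swap
  · have h0 := hmix x y hxy
    refine ⟨?_, ?_, Or.inr h0⟩ <;> rw [h0, zero_div] <;> exact (H41.localRing M).zero_mem
  refine ⟨?_, ?_, Or.inl hxy⟩ <;> by_cases hx : p ∣ orderOf x
  rotate_left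
  · have hy : ¬ p ∣ orderOf y := hxy.1 hx
    rw [hμe, Finset.sum_congr rfl (g := fun η => ((ε η : ℂ) * (η : H → ℂ) y) * (I η : G → ℂ) x)
      fun η _ => by ring]
    refine H56.memLocalRing_div_centralizer hM (blockFinset c) _ I (fun η _ => hint _ η y)
      (fun x' hx' => ?_) hx
    rw [← hmix x' y (fun h => (h.2 hy) hx'), hμe]
    exact Finset.sum_congr rfl fun η _ => by ring
  rotate_left
  · have hy : ¬ p ∣ orderOf y := hxy.1 hx
    rw [hμe]
    refine H56.memLocalRing_div_centralizer hM (blockFinset c)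
      (fun η => (ε η : ℂ) * (I η : G → ℂ) x) id (fun η _ => ?_) (fun y' hy' => ?_) hy
    · exact (H42.isIntegral_intCast _).mul (H42.isIntegral_value (H26.irr_isCharacter (I η)) x)
    · exact (hμe x y').symm.trans (hmix x y' fun h => (h.1 hx) hy')
  all_goals
    have hy : p ∣ orderOf y := not_not.1 fun h => (hxy.2 h) hx
    obtain ⟨n, o, φ, hφi, hφ, hv⟩ := tG.expand x hx
    obtain ⟨m, o', ψ, hψi, hψ, hw⟩ := tH.expand y hy
    have hμk : μ x y = ∑ i, ∑ j,
        φ i * ψ j * ∑ η ∈ blockFinset c, DH η (o i) * DH η (o' j) := by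
      rw [hμe]
      simp only [Finset.mul_sum]
      rw [Finset.sum_congr rfl fun i _ => Finset.sum_comm, Finset.sum_comm]
      refine Finset.sum_congr rfl fun η hη => ?_
      have hη' := mem_blockFinset.1 hη
      rw [hv _ (hI.1 hη'), hw _ hη', mul_assoc, Finset.sum_mul, Finset.mul_sum]
      refine Finset.sum_congr rfl fun i _ => ?_
      rw [Finset.mul_sum, Finset.mul_sum]
      refine Finset.sum_congr rfl fun j _ => ?_
      rw [hD η hη' (o i)]
      linear_combination (φ i * ψ j * DH η (o i) * DH η (o' j)) * hsq η hη'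
    rw [hμk]
    simp only [Finset.sum_div]
    refine Subring.sum_mem (H41.localRing M) fun i _ =>
      Subring.sum_mem (H41.localRing M) fun j _ => ?_
    have hq0 : (q : ℂ) ≠ 0 := Nat.cast_ne_zero.2 hq.ne'
    first
    | rw [show φ i * ψ j * (∑ η ∈ blockFinset c, DH η (o i) * DH η (o' j)) /
          (Nat.card (Subgroup.centralizer ({x} : Set G)) : ℂ) =
          (∑ η ∈ blockFinset c, DH η (o i) * DH η (o' j)) / (q : ℂ) * ψ j *
          ((q : ℂ) * φ i / (Nat.card (Subgroup.centralizer ({x} : Set G)) : ℂ)) by field_simp]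
      exact mul_mem (mul_mem (hq' _ _) (H41.isIntegral_mem_localRing (hψi j))) (hφ i)
    | rw [show φ i * ψ j * (∑ η ∈ blockFinset c, DH η (o i) * DH η (o' j)) /
          (Nat.card (Subgroup.centralizer ({y} : Set H)) : ℂ) =
          (∑ η ∈ blockFinset c, DH η (o i) * DH η (o' j)) / (q : ℂ) * φ i *
          ((q : ℂ) * ψ j / (Nat.card (Subgroup.centralizer ({y} : Set H)) : ℂ)) by field_simp]
      exact mul_mem (mul_mem (hq' _ _) (H41.isIntegral_mem_localRing (hφi i))) (hψ j)

end Cfsg.Agent.H57.Cyclic
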