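import Cfsg.Agent.H57.Cyclic.Values
import Cfsg.Agent.H57.Cyclic.Kernel
import Cfsg.Agent.H42.BlockSpan

/-!
# The table of a block with cyclic defect group

The values at singular elements expand over the columns indexed by the nontrivial elements of the defect
group, with coefficients which, times the order of the defect group, are divisible by the orders of the
centralisers.
-/

set_option autoImplicit false
set_option linter.unusedSectionVars false

open scoped ComplexConjugate Classical

namespace Cfsg.Agent.H57.Cyclic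

open Cfsg
open Cfsg.Agent.H22 (IsMaxEl el elTop pairStab CarriesInto conjSet)
open Cfsg.Agent.H41 (ResField res localRing)
open Cfsg.Agent.H40.StarTrace (CZ)
open Cfsg.Agent.H42 (blockFinset mem_blockFinset regRes)
open Cfsg.Agent.H40.StarNorm (secPart secBlocks mem_secBlocks)

universe u

variable {G : Type u} [Group G] [Fintype G] {p : ℕ} [Fact p.Prime] {M : Ideal Cfsg.AlgInt}
  [M.IsMaximal] [CharP (ResField M) p] {B : Set (Cfsg.IrrCharacter G)} {P : Subgroup G}
  {e : MonoidAlgebra (ResField M) G}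

/-- Centralisers of conjugate elements have the same order. -/
theorem card_centralizer_conj (y x : G) :
    Nat.card (Subgroup.centralizer ({y * x * y⁻¹} : Set G)) =
      Nat.card (Subgroup.centralizer ({x} : Set G)) := by
  refine (Nat.card_congr ((MulAut.conj y).toEquiv.subtypeEquiv fun z => ?_)).symm
  rw [Subgroup.mem_centralizer_singleton_iff, Subgroup.mem_centralizer_singleton_iff]
  show z * x = x * z ↔ y * z * y⁻¹ * (y * x * y⁻¹) = y * x * y⁻¹ * (y * z * y⁻¹)
  constructor <;> intro h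
  · calc y * z * y⁻¹ * (y * x * y⁻¹) = y * (z * x) * y⁻¹ := by group
      _ = y * (x * z) * y⁻¹ := by rw [h]
      _ = _ := by group
  · have h' := congrArg (fun w => y⁻¹ * w * y) h
    simpa [mul_assoc] using h'

variable (hM : Cfsg.IsPModular p M) (hB : Cfsg.IsPBlock M B)
  (hm : IsMaxEl p ⊤ (elTop M B) (P, e)) (hcyc : IsCyclic P)

include hM hB hm hcyc

/-- The members of the block at `v` add up to the order of `P` times their regular part. -/
theorem sum_cb_eq {v : G} (hv : v ∈ P) (hv1 : v ≠ 1) (s : CZ v) :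
    ∑ φ ∈ blockFinset (cb p M P e v), (φ : CZ v → ℂ) s =
      (Nat.card P : ℂ) * regRes p (cphi p M P e v) s := by
  obtain ⟨hφ, -, -, -, -, hn⟩ := cb_local hM hB hm hcyc hv hv1
  obtain ⟨hc, -, -, -⟩ := cb_spec hM hB hm hcyc hv
  obtain ⟨φ₀, hφ₀⟩ := H41.IsPBlock.nonempty hc
  have hreg : regRes p (cphi p M P e v) = regRes p (φ₀ : CZ v → ℂ) := funext fun t => by
    by_cases ht : p ∣ orderOf t
    · rw [H42.regRes_of_singular ht, H42.regRes_of_singular ht]
    · rw [H42.regRes_of_regular ht, H42.regRes_of_regular ht, hφ φ₀ hφ₀ t ht]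
  have hq : (Nat.card P : ℂ) ≠ 0 := Nat.cast_ne_zero.2 Nat.card_pos.ne'
  rw [hreg, H42.regRes_eq_sum_block hM hc hφ₀ s, Finset.mul_sum]
  refine Finset.sum_congr rfl fun ξ hξ => ?_
  rw [← H42.classInner_regRes_eq, ← mul_assoc]
  have h1 : Cfsg.classInner (regRes p (φ₀ : CZ v → ℂ)) (ξ : CZ v → ℂ) =
      Cfsg.classInner (regRes p (cphi p M P e v)) (cphi p M P e v) := by
    rw [hreg, Cfsg.classInner, Cfsg.classInner]
    refine congrArg _ (Finset.sum_congr rfl fun t _ => ?_)
    by_cases ht : p ∣ orderOf t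
    · rw [H42.regRes_of_singular ht, zero_mul, zero_mul]
    · rw [hφ ξ (mem_blockFinset.1 hξ) t ht]
  rw [h1, hn, one_mul]

/-- The common values are divisible by the centraliser orders over the order of `P`. -/
theorem memLocalRing_cphi {v : G} (hv : v ∈ P) (hv1 : v ≠ 1) {s : CZ v} (hs : ¬ p ∣ orderOf s) :
    Cfsg.MemLocalRing M ((Nat.card P : ℂ) * cphi p M P e v s /
      (Nat.card (Subgroup.centralizer ({s} : Set (CZ v))) : ℂ)) := by
  have hsum := sum_cb_eq hM hB hm hcyc hv hv1
  have h := H56.memLocalRing_div_centralizer hM (blockFinset (cb p M P e v))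
    (fun _ => (1 : ℂ)) id (fun _ _ => isIntegral_one)
    (fun y hy => by
      simp only [one_mul, id]
      rw [hsum, H42.regRes_of_singular hy, mul_zero]) hs
  simp only [one_mul, id] at h
  rwa [hsum, H42.regRes_of_regular hs] at h

/-- A carried block at a `p`-element gives a column of the table. -/
theorem exists_carried_term {u : G} (hu1 : u ≠ 1)
    {b : Set (Cfsg.IrrCharacter (CZ u))} (hb : Cfsg.IsPBlock M b)
    (hcar : ∃ y, CarriesInto p (P, e) u (el M (CZ u) b) y) {r : CZ u} (hr : ¬ p ∣ orderOf r) :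
    ∃ (v : {x : P // x ≠ 1}) (c : ℂ), IsIntegral ℤ c ∧
      Cfsg.MemLocalRing M ((Nat.card P : ℂ) * c /
        (Nat.card (Subgroup.centralizer ({u * (r : G)} : Set G)) : ℂ)) ∧
      ∀ χ : Cfsg.IrrCharacter G, secPart (χ : G → ℂ) u b r = dv p M P e χ v * c := by
  obtain ⟨y, hy⟩ := hcar
  have hvP : y * u * y⁻¹ ∈ P :=
    H22.PLe.le hy (H22.conj_mem_cS (Subgroup.mem_zpowers u))
  have hv1 : y * u * y⁻¹ ≠ 1 := fun h => hu1 (conj_eq_one_iff.1 h)
  have hz := H40.StarTrace.cS_CZ y u
  have hb' : conjSet y _ _ hz b = cb p M P e (y * u * y⁻¹) := by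
    refine cb_unique hM hB hm hcyc hvP (H22.isPBlock_conjSet hz hb) (carries_one_iff.2 ?_)
    rw [H22.el_conjSet, ← H40.StarTrace.cS_zpowers]
    exact hy
  have hs : y * (r : G) * y⁻¹ ∈ CZ (y * u * y⁻¹) := hz ▸ H22.conj_mem_cS r.2
  set s : CZ (y * u * y⁻¹) := ⟨_, hs⟩ with hsdef
  have hsreg : ¬ p ∣ orderOf s := by
    rw [← Subgroup.orderOf_coe, hsdef, H42.orderOf_conj_eq, Subgroup.orderOf_coe]
    exact hr
  have heq : y * (u * (r : G)) * y⁻¹ = y * u * y⁻¹ * (s : G) := by
    rw [hsdef]
    group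
  refine ⟨⟨⟨_, hvP⟩, fun h => hv1 (congrArg Subtype.val h)⟩, cphi p M P e (y * u * y⁻¹) s,
    (cb_local hM hB hm hcyc hvP hv1).2.2.2.2.1 s, ?_, fun χ => ?_⟩
  · rw [← card_centralizer_conj y (u * (r : G)), heq, H32.card_centralizer_mul (p := p)
      (exists_orderOf_eq hM hB hm hcyc hvP) hsreg]
    exact memLocalRing_cphi hM hB hm hcyc hvP hv1 hsreg
  · rw [← dpart_eq_secPart (H26.irr_isClassFunction χ),
      ← H22.dpart_conjSet (H26.irr_isClassFunction χ) y hz, hb', heq,
      dpart_eq_secPart (H26.irr_isClassFunction χ),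
      secPart_eq_dec hM hB hm hcyc (H26.irr_isClassFunction χ) hvP hv1 s hsreg]
    rfl

/-- The table of the block. -/
theorem block_table [Fintype P] {γ : {x : P // x ≠ 1} → ℂ} (hγi : ∀ v, IsIntegral ℤ (γ v))
    (hγn : ∀ v, γ v * conj (γ v) = 1) :
    Table p M (Nat.card P) B {x : P // x ≠ 1} (fun χ v => γ v * dv p M P e χ v) where
  orth := fun s hs o => by
    rw [Finset.sum_congr rfl (g := fun χ : Cfsg.IrrCharacter G =>
      γ o * ((χ : G → ℂ) s * dv p M P e χ o)) fun χ _ => by ring, ← Finset.mul_sum,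
      sum_char_mul_dv hM hB hm hcyc hs o, mul_zero]
  expand := fun x hx => by
    obtain ⟨u, hu⟩ := H40.exists_isPPart (p := p) x
    obtain ⟨r, hr, hur, hup, hreg⟩ := id hu
    have hu1 : u ≠ 1 := by
      rintro rfl
      rw [one_mul] at hr
      exact hreg (hr ▸ hx)
    have hrK : r ∈ CZ u := H32.mem_centralizer_zpowers_iff.2 hur.symm
    let t : CZ u := ⟨r, hrK⟩
    have ht : ¬ p ∣ orderOf t := by rwa [← Subgroup.orderOf_coe]
    set T := (secBlocks M u).filter fun b => ∃ y, CarriesInto p (P, e) u (el M (CZ u) b) y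
      with hT
    have hterm : ∀ b : T, ∃ (v : {x : P // x ≠ 1}) (c : ℂ), IsIntegral ℤ c ∧
        Cfsg.MemLocalRing M ((Nat.card P : ℂ) * c /
          (Nat.card (Subgroup.centralizer ({u * (t : G)} : Set G)) : ℂ)) ∧
        ∀ χ : Cfsg.IrrCharacter G, secPart (χ : G → ℂ) u b t = dv p M P e χ v * c := fun b => by
      obtain ⟨hb, hcar⟩ := Finset.mem_filter.1 b.2
      exact exists_carried_term hM hB hm hcyc hu1 (mem_secBlocks.1 hb) hcar ht
    choose v c hci hcl hc using hterm
    let ε := T.equivFin.symm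
    refine ⟨T.card, fun i => v (ε i), fun i => conj (γ (v (ε i))) * c (ε i),
      fun i => ((hγi _).map (starRingEnd ℂ).toIntAlgHom).mul (hci _), fun i => ?_, fun χ hχ => ?_⟩
    · have h := mul_mem (H41.isIntegral_mem_localRing (M := M)
        ((hγi (v (ε i))).map (starRingEnd ℂ).toIntAlgHom)) (show _ ∈ localRing M from hcl (ε i))
      rw [show x = u * (t : G) from hr.symm ▸ rfl]
      show _ ∈ localRing M
      convert h using 1
      show (Nat.card P : ℂ) * (conj (γ (v (ε i))) * c (ε i)) / _ = conj (γ (v (ε i))) * _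
      ring
    · rw [Fintype.sum_equiv ε _ (fun b : T => γ (v b) * dv p M P e χ (v b) *
        (conj (γ (v b)) * c b)) fun i => rfl,
        Finset.sum_congr rfl (g := fun b : T => secPart (χ : G → ℂ) u b t) fun b _ => by
          rw [hc]; linear_combination (dv p M P e χ (v b) * c b) * hγn (v b),
        Finset.sum_coe_sort T (fun b => secPart (χ : G → ℂ) u b t),
        show (χ : G → ℂ) x = (χ : G → ℂ) (u * (t : G)) by simp only [t, hr],
        ← H40.StarNorm.sum_secPart (M := M) (H26.irr_isClassFunction χ) u t]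
      refine (Finset.sum_subset (Finset.filter_subset _ _) fun b hb hbT => ?_).symm
      exact (H40.StarNorm.secPart_eq_zero_or_carries hM hB hm hχ hup (mem_secBlocks.1 hb)
        ht).resolve_right fun h => hbT (Finset.mem_filter.2 ⟨hb, h⟩)

end Cfsg.Agent.H57.Cyclic
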