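import Mathlib.GroupTheory.SpecificGroups.Cyclic
import Mathlib.RingTheory.ZMod.UnitsCyclic
import Mathlib.GroupTheory.PGroup
import Mathlib.GroupTheory.Perm.Cycle.Type

/-!
# Automorphisms of prime-to-`p` order of a cyclic `p`-group
-/

set_option autoImplicit false

namespace Cfsg.Agent.H57.Cyclic

universe w

variable {P : Type w} [Group P] [Finite P] [IsCyclic P] {p : ℕ} [hp : Fact p.Prime]

/-- Nontrivial subgroups of a cyclic `p`-group meet. -/
theorem eq_bot_or_eq_bot_of_inf_eq_bot (hP : IsPGroup p P) {A B : Subgroup P} (h : A ⊓ B = ⊥) :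
    A = ⊥ ∨ B = ⊥ := by
  classical
  have : Fintype P := Fintype.ofFinite P
  by_contra hne
  push Not at hne
  have key : ∀ {A : Subgroup P}, A ≠ ⊥ → ∃ a ∈ A, orderOf a = p := fun {A} hA => by
    have : Nontrivial A := A.nontrivial_iff_ne_bot.2 hA
    obtain ⟨n, hn0, hn⟩ := (hP.to_subgroup A).nontrivial_iff_card.1 this
    obtain ⟨a, ha⟩ := exists_prime_orderOf_dvd_card' (G := A) p (hn ▸ dvd_pow_self p hn0.ne')
    exact ⟨a, a.2, by rw [Subgroup.orderOf_coe, ha]⟩
  obtain ⟨a, ha, hap⟩ := key hne.1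
  obtain ⟨b, hb, hbp⟩ := key hne.2
  have hle : (Finset.univ.filter fun x : P => x ^ p = 1).card ≤ p :=
    IsCyclic.card_pow_eq_one_le hp.out.pos
  have hsub : Finset.univ.filter (fun x : P => x ∈ Subgroup.zpowers a) ⊆
      Finset.univ.filter fun x : P => x ^ p = 1 := fun x hx => by
    obtain ⟨k, rfl⟩ := Subgroup.mem_zpowers_iff.1 (Finset.mem_filter.1 hx).2
    refine Finset.mem_filter.2 ⟨Finset.mem_univ _, ?_⟩
    rw [← zpow_natCast, ← zpow_mul, mul_comm, zpow_mul, zpow_natCast, ← hap, pow_orderOf_eq_one,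
      one_zpow]
  have hcard : (Finset.univ.filter fun x : P => x ∈ Subgroup.zpowers a).card = p := by
    rw [← Fintype.card_subtype, ← Nat.card_eq_fintype_card, Nat.card_zpowers, hap]
  have heq := Finset.eq_of_subset_of_card_le hsub (hle.trans hcard.ge)
  have hb' : b ∈ Subgroup.zpowers a := by
    have : b ∈ Finset.univ.filter fun x : P => x ^ p = 1 :=
      Finset.mem_filter.2 ⟨Finset.mem_univ _, hbp ▸ pow_orderOf_eq_one b⟩
    rw [← heq] at this
    exact (Finset.mem_filter.1 this).2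
  have hb1 : b = 1 := Subgroup.mem_bot.1
    (h ▸ Subgroup.mem_inf.2 ⟨(Subgroup.zpowers_le.2 ha) hb', hb⟩)
  rw [hb1, orderOf_one] at hbp
  exact hp.out.one_lt.ne hbp

/-- An automorphism of order prime to `p` fixing an element other than the identity is trivial. -/
theorem aut_eq_one_of_fixed (hP : IsPGroup p P) {α : MulAut P} {e : ℕ} (he : α ^ e = 1)
    (hpe : ¬ p ∣ e) {v : P} (hv : v ≠ 1) (hαv : α v = v) : α = 1 := by
  have hc : ∀ x y : P, x * y = y * x := fun x y => by
    obtain ⟨g, hg⟩ := IsCyclic.exists_generator (α := P)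
    obtain ⟨i, rfl⟩ := Subgroup.mem_zpowers_iff.1 (hg x)
    obtain ⟨j, rfl⟩ := Subgroup.mem_zpowers_iff.1 (hg y)
    rw [← zpow_add, ← zpow_add, add_comm]
  let φ : P →* P :=
    { toFun := fun x => α x * x⁻¹
      map_one' := by simp
      map_mul' := fun x y => by
        rw [map_mul, mul_inv_rev, mul_assoc, ← mul_assoc (α y), hc (α y * y⁻¹) x⁻¹, ← mul_assoc] }
  have hφ : ∀ x, φ x = α x * x⁻¹ := fun _ => rfl
  have hdis : φ.range ⊓ φ.ker = ⊥ := by
    refine (Subgroup.eq_bot_iff_forall _).2 fun y hy => ?_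
    obtain ⟨⟨x, rfl⟩, hk⟩ := Subgroup.mem_inf.1 hy
    set y := φ x with hy'
    have hfix : α y = y := by
      rw [MonoidHom.mem_ker, hφ] at hk
      exact mul_inv_eq_one.1 hk
    have hx : α x = y * x := by rw [hy', hφ, inv_mul_cancel_right]
    have hit : ∀ n : ℕ, (α ^ n) x = y ^ n * x := fun n => by
      induction n with
      | zero => simp
      | succ n ih => rw [pow_succ', MulAut.mul_apply, ih, map_mul, map_pow, hfix, hx, pow_succ,
          mul_assoc]
    have h1 := hit e
    rw [he, MulAut.one_apply, eq_comm, mul_eq_right] at h1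
    obtain ⟨k, hk'⟩ := hP y
    rw [← orderOf_eq_one_iff]
    exact Nat.eq_one_of_dvd_coprimes ((Nat.Coprime.pow_left k (hp.out.coprime_iff_not_dvd.2 hpe)))
      (orderOf_dvd_of_pow_eq_one hk') (orderOf_dvd_of_pow_eq_one h1)
  have hker : φ.ker ≠ ⊥ := fun h => hv (Subgroup.mem_bot.1 (h ▸ MonoidHom.mem_ker.2
    (by rw [hφ, hαv, mul_inv_cancel])))
  have hrange := (eq_bot_or_eq_bot_of_inf_eq_bot hP hdis).resolve_right hker
  refine MulEquiv.ext fun x => mul_inv_eq_one.1 ?_
  rw [MulAut.one_apply, ← hφ]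
  exact Subgroup.mem_bot.1 (hrange ▸ ⟨x, rfl⟩)

/-- The order of a group of automorphisms prime to `p` divides `p - 1`. -/
theorem card_dvd_pred (hP : IsPGroup p P) (E : Subgroup (MulAut P)) (hpE : ¬ p ∣ Nat.card E) :
    Nat.card E ∣ p - 1 := by
  obtain ⟨n, hn⟩ := IsPGroup.iff_card.1 hP
  have h := E.card_subgroup_dvd_card
  rw [IsCyclic.card_mulAut P, hn] at h
  rcases Nat.eq_zero_or_pos n with rfl | hn0
  · rw [pow_zero, Nat.totient_one, Nat.dvd_one] at h
    rw [h]
    exact one_dvd _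
  · rw [Nat.totient_prime_pow hp.out hn0] at h
    exact (((hp.out.coprime_iff_not_dvd.2 hpE).pow_left (n - 1)).symm).dvd_of_dvd_mul_left h

/-- A cyclic `p`-group has at most one group of automorphisms of a given order dividing `p - 1`. -/
theorem subgroup_eq_of_card_eq (hP : IsPGroup p P) {E E' : Subgroup (MulAut P)}
    (h : Nat.card E = Nat.card E') (hd : Nat.card E ∣ p - 1) : E = E' := by
  classical
  by_cases hp2 : p = 2
  · subst hp2
    have h1 : Nat.card E = 1 := Nat.dvd_one.1 hd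
    rw [Subgroup.card_eq_one.1 h1, Subgroup.card_eq_one.1 (h.symm.trans h1)]
  obtain ⟨n, hn⟩ := IsPGroup.iff_card.1 hP
  have hc : IsCyclic (ZMod (Nat.card P))ˣ := hn ▸ ZMod.isCyclic_units_of_prime_pow p hp.out hp2 n
  have : IsCyclic (MulAut P) :=
    isCyclic_of_surjective (IsCyclic.mulAutMulEquiv P).symm.toMonoidHom
      (IsCyclic.mulAutMulEquiv P).symm.surjective
  have : Fintype (MulAut P) := Fintype.ofFinite _
  have key : ∀ F : Subgroup (MulAut P), Nat.card F = Nat.card E →
      Finset.univ.filter (fun a => a ∈ F) =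
        Finset.univ.filter fun a : MulAut P => a ^ Nat.card E = 1 := fun F hF => by
    refine Finset.eq_of_subset_of_card_le (fun a ha => Finset.mem_filter.2 ⟨Finset.mem_univ _, ?_⟩)
      ((IsCyclic.card_pow_eq_one_le Nat.card_pos).trans_eq ?_)
    · have h1 : (⟨a, (Finset.mem_filter.1 ha).2⟩ : F) ^ Nat.card F = 1 := pow_card_eq_one'
      rw [hF] at h1
      exact congrArg Subtype.val h1
    · rw [← Fintype.card_subtype, ← Nat.card_eq_fintype_card]
      exact hF.symm
  have e := (key E rfl).trans (key E' h.symm).symm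
  ext a
  simpa using Finset.ext_iff.1 e a

end Cfsg.Agent.H57.Cyclic
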