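import Cfsg.Agent.H57.Cyclic.Sections
import Cfsg.Agent.H45.Galois
import Mathlib.Algebra.CharP.Lemmas
import Mathlib.Algebra.CharP.Quotient

/-!
# Decomposition numbers of a block with cyclic defect group

Their behaviour under field automorphisms, their residues and powers, and the pairing and counting
formulas they satisfy.
-/

set_option autoImplicit false
set_option linter.unusedSectionVars false

open scoped ComplexConjugate

namespace Cfsg.Agent.H57.Cyclic

open Cfsg
open Cfsg.Agent.H22 (IsMaxEl el elTop pairStab CarriesInto PairStable dpart)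
open Cfsg.Agent.H41 (ResField res localRing)
open Cfsg.Agent.H40.StarTrace (CZ)
open Cfsg.Agent.H56.Subsec (mult scal mem' mem_mem')

universe u

variable {G : Type u} [Group G] [Fintype G] {p : ℕ} [Fact p.Prime] {M : Ideal Cfsg.AlgInt}
  [M.IsMaximal] [CharP (ResField M) p] {B : Set (Cfsg.IrrCharacter G)} {P : Subgroup G}
  {e : MonoidAlgebra (ResField M) G}

open scoped Classical in
/-- The total multiplicity of the block at `v` in `χ`; the residue of its decomposition number. -/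
noncomputable def decRes (p : ℕ) (M : Ideal Cfsg.AlgInt) [M.IsMaximal] (P : Subgroup G)
    (e : MonoidAlgebra (ResField M) G) (χ : Cfsg.IrrCharacter G) (v : G) : ℕ :=
  ∑ φ ∈ mem' (cb p M P e v), mult v χ φ

variable (hM : Cfsg.IsPModular p M) (hB : Cfsg.IsPBlock M B)
  (hm : IsMaxEl p ⊤ (elTop M B) (P, e)) (hcyc : IsCyclic P)

include hM hB hm hcyc

theorem exists_orderOf_eq {v : G} (hv : v ∈ P) : ∃ k : ℕ, orderOf v = p ^ k := by
  obtain ⟨k, hk⟩ := IsPGroup.iff_orderOf.1 hm.pair.pGroup ⟨v, hv⟩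
  exact ⟨k, by rwa [← Subgroup.orderOf_coe] at hk⟩

theorem pow_card_eq {v : G} (hv : v ∈ P) : v ^ Nat.card P = 1 :=
  congrArg Subtype.val (pow_card_eq_one' (x := (⟨v, hv⟩ : P)))

open scoped Classical in
/-- The decomposition number, by the scalars of `v`. -/
theorem dec_eq_sum (χ : Cfsg.IrrCharacter G) {v : G} (hv : v ∈ P) (hv1 : v ≠ 1) :
    dec p M P e (χ : G → ℂ) v =
      ∑ φ ∈ mem' (cb p M P e v), (mult v χ φ : ℂ) * scal v φ := by
  obtain ⟨hφ, -, hdeg, hd0, -, -⟩ := cb_local hM hB hm hcyc hv hv1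
  have h1 : ¬ p ∣ orderOf (1 : CZ v) := by simpa using (Fact.out : p.Prime).not_dvd_one
  have hb : dpart (CZ v) (cb p M P e v) (χ : G → ℂ) v =
      H56.Subsec.bpart p v (cb p M P e v) χ 1 := by
    rw [H40.StarTrace.bpart_eq_secPart, if_pos (show Cfsg.IsPRegular p (1 : CZ v) from h1), ← dpart_eq_secPart (H26.irr_isClassFunction χ),
      OneMemClass.coe_one, mul_one]
  rw [dec, hb, H56.Subsec.bpart_apply, div_eq_iff hd0, Finset.sum_mul]
  refine Finset.sum_congr rfl fun φ h => ?_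
  rw [H42.regRes_of_regular h1, hφ φ (mem_mem'.1 h) 1 h1, hdeg]

open scoped Classical in
theorem isIntegral_dec (χ : Cfsg.IrrCharacter G) {v : G} (hv : v ∈ P) (hv1 : v ≠ 1) :
    IsIntegral ℤ (dec p M P e (χ : G → ℂ) v) := by
  rw [dec_eq_sum hM hB hm hcyc χ hv hv1]
  exact IsIntegral.sum _ fun φ _ =>
    (H42.isIntegral_natCast _).mul (H56.Subsec.scal_isIntegral v φ)

/-- The residue of a decomposition number. -/
theorem res_dec (χ : Cfsg.IrrCharacter G) {v : G} (hv : v ∈ P) (hv1 : v ≠ 1) :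
    res M ⟨_, H41.isIntegral_mem_localRing (isIntegral_dec hM hB hm hcyc χ hv hv1)⟩ =
      (decRes p M P e χ v : ResField M) := by
  classical
  obtain ⟨j, hj⟩ := exists_orderOf_eq hM hB hm hcyc hv
  let ζ : Cfsg.IrrCharacter (CZ v) → localRing M :=
    fun φ => ⟨_, H41.isIntegral_mem_localRing (H56.Subsec.scal_isIntegral v φ)⟩
  have hζ : ∀ φ, res M (ζ φ) = 1 := fun φ => by
    exact H56.Subsec.res_root_eq_one hM (e := j) (ζ φ)
      (H56.Subsec.scal_pow v (by rw [← hj]; exact pow_orderOf_eq_one v) φ)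
  have he : (⟨_, H41.isIntegral_mem_localRing (isIntegral_dec hM hB hm hcyc χ hv hv1)⟩ :
      localRing M) = ∑ φ ∈ mem' (cb p M P e v), (mult v χ φ : localRing M) * ζ φ := by
    refine Subtype.ext ?_
    simp [ζ, dec_eq_sum hM hB hm hcyc χ hv hv1]
  rw [he, map_sum, decRes, Nat.cast_sum]
  exact Finset.sum_congr rfl fun φ _ => by rw [map_mul, map_natCast, hζ, mul_one]

/-- The `q`-th power of a decomposition number is congruent to its residue modulo `p`. -/
theorem dec_pow_card (χ : Cfsg.IrrCharacter G) {v : G} (hv : v ∈ P) (hv1 : v ≠ 1) :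
    ∃ w : localRing M, dec p M P e (χ : G → ℂ) v ^ Nat.card P =
      (decRes p M P e χ v : ℂ) + (p : ℂ) * (w : ℂ) := by
  classical
  obtain ⟨a, ha⟩ := IsPGroup.iff_card.1 hm.pair.pGroup
  let ζ : Cfsg.IrrCharacter (CZ v) → localRing M :=
    fun φ => ⟨_, H41.isIntegral_mem_localRing (H56.Subsec.scal_isIntegral v φ)⟩
  let I : Ideal (localRing M) := Ideal.span {(p : localRing M)}
  have hI : I ≠ ⊤ := fun h => by
    rw [Ideal.span_singleton_eq_top] at h
    have h' := h.map (res M)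
    rw [map_natCast, H41.IsPModular.natCast_resField hM] at h'
    exact not_isUnit_zero h'
  have : Nontrivial (localRing M ⧸ I) := Ideal.Quotient.nontrivial_iff.2 hI
  have hp0 : ((p : ℕ) : localRing M ⧸ I) = 0 := by
    rw [← map_natCast (Ideal.Quotient.mk I), Ideal.Quotient.eq_zero_iff_mem]
    exact Ideal.mem_span_singleton_self _
  have : CharP (localRing M ⧸ I) p :=
    (CharP.charP_iff_prime_eq_zero (Fact.out : p.Prime)).2 hp0
  have hq : ∀ φ, ζ φ ^ p ^ a = 1 := fun φ => Subtype.ext (by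
    push_cast
    exact H56.Subsec.scal_pow v (ha ▸ pow_card_eq hM hB hm hcyc hv) φ)
  set X : localRing M := ∑ φ ∈ mem' (cb p M P e v), (mult v χ φ : localRing M) * ζ φ with hX
  have hcast : ∀ n : ℕ, (Ideal.Quotient.mk I) ((n : localRing M) ^ p ^ a) =
      (Ideal.Quotient.mk I) (n : localRing M) := fun n => by
    rw [map_pow, map_natCast, ← iterateFrobenius_def, map_natCast]
  have h : (Ideal.Quotient.mk I) (X ^ p ^ a) =
      (Ideal.Quotient.mk I) (decRes p M P e χ v : localRing M) := by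
    rw [map_pow, hX, map_sum, sum_pow_char_pow, decRes, Nat.cast_sum, map_sum]
    refine Finset.sum_congr rfl fun φ _ => ?_
    rw [← map_pow, mul_pow, hq, mul_one, hcast]
  rw [Ideal.Quotient.eq, Ideal.mem_span_singleton'] at h
  obtain ⟨w, hw⟩ := h
  refine ⟨w, ?_⟩
  have hc := congrArg (fun z : localRing M => (z : ℂ)) hw
  simp only [hX, ζ] at hc
  push_cast at hc
  rw [ha, dec_eq_sum hM hB hm hcyc χ hv hv1]
  linear_combination -hc

/-- A field automorphism moves `v` along. -/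
theorem ringAut_dec (χ : Cfsg.IrrCharacter G) (σ : ℂ ≃+* ℂ) {k : ℕ} (hk : k.Coprime (Nat.card G))
    (hσ : ∀ z : ℂ, z ^ Nat.card G = 1 → σ z = z ^ k) {v : G} (hv : v ∈ P) (hv1 : v ≠ 1) :
    σ (dec p M P e (χ : G → ℂ) v) = dec p M P e (χ : G → ℂ) (v ^ k) := by
  classical
  obtain ⟨l, hl⟩ := exists_pow_eq_self_of_coprime (x := v)
    (hk.coprime_dvd_right (orderOf_dvd_natCard v))
  have hz : Subgroup.zpowers (v ^ k) = Subgroup.zpowers v :=
    le_antisymm (Subgroup.zpowers_le.2 (Subgroup.npow_mem_zpowers v k))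
      (Subgroup.zpowers_le.2 (by
        have h := Subgroup.npow_mem_zpowers (v ^ k) l
        rwa [hl] at h))
  have hv' : v ^ k ∈ P := pow_mem hv k
  have hv'1 : v ^ k ≠ 1 := fun h => hv1 (by rw [← hl, h, one_pow])
  have hKK : CZ (v ^ k) = CZ v := by rw [CZ, CZ, hz]
  obtain ⟨hc, -, -, -⟩ := cb_spec hM hB hm hcyc hv
  obtain ⟨hc', -, -, -⟩ := cb_spec hM hB hm hcyc hv'
  have hel := el_cb_eq hM hB hm hcyc hv' hv hz
  have hdp : dpart (CZ (v ^ k)) (cb p M P e (v ^ k)) (χ : G → ℂ) (v ^ k) =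
      dpart (CZ v) (cb p M P e v) (χ : G → ℂ) (v ^ k) :=
    transport (fun K c => dpart K c (χ : G → ℂ) (v ^ k)) hKK hc' hc hel
  obtain ⟨hφ, -, hdeg, -, -, -⟩ := cb_local hM hB hm hcyc hv hv1
  obtain ⟨hφ', -, hdeg', -, -, -⟩ := cb_local hM hB hm hcyc hv' hv'1
  have hD : cdeg p M P e (v ^ k) = cdeg p M P e v := by
    have himg : (fun φ : Cfsg.IrrCharacter (CZ (v ^ k)) => (φ : CZ (v ^ k) → ℂ) 1) ''
        cb p M P e (v ^ k) =
        (fun φ : Cfsg.IrrCharacter (CZ v) => (φ : CZ v → ℂ) 1) '' cb p M P e v :=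
      transport (fun K (c : Set (Cfsg.IrrCharacter K)) =>
        (fun φ : Cfsg.IrrCharacter K => (φ : K → ℂ) 1) '' c) hKK hc' hc hel
    have h1 : ¬ p ∣ orderOf (1 : CZ v) := by simpa using (Fact.out : p.Prime).not_dvd_one
    have h1' : ¬ p ∣ orderOf (1 : CZ (v ^ k)) := by simpa using (Fact.out : p.Prime).not_dvd_one
    obtain ⟨φ, hφm⟩ := H41.IsPBlock.nonempty hc'
    obtain ⟨ψ, hψm, hψ⟩ := himg.le ⟨φ, hφm, rfl⟩
    dsimp only at hψ
    rw [hdeg, hdeg', ← hφ' φ hφm 1 h1', ← hψ, hφ ψ hψm 1 h1]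
  have hdg : σ (cdeg p M P e v) = cdeg p M P e v := by
    by_cases hne : (cb p M P e v).Nonempty
    · rw [cdeg, dif_pos hne, H42.irr_one_eq, map_natCast]
    · rw [cdeg, dif_neg hne, map_one]
  rw [dec, dec, map_div₀, hdg, H22.ringAut_dpart (H26.irr_isCharacter χ) σ hσ, hdp, hD]
  exact H32.mem_centralizer_zpowers_iff.2 (Commute.refl v)

/-- At the inverse stands the conjugate. -/
theorem dec_inv (χ : Cfsg.IrrCharacter G) {v : G} (hv : v ∈ P) (hv1 : v ≠ 1) :
    dec p M P e (χ : G → ℂ) v⁻¹ = conj (dec p M P e (χ : G → ℂ) v) := by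
  have hn : 0 < Nat.card G := Nat.card_pos
  have hk : (Nat.card G - 1).Coprime (Nat.card G) := by
    conv => arg 2; rw [show Nat.card G = (Nat.card G - 1) + 1 by omega]
    exact Nat.coprime_self_add_right.2 (Nat.coprime_one_right _)
  have h := ringAut_dec hM hB hm hcyc χ (starRingAut (R := ℂ)) hk (fun z hz => ?_) hv hv1
  · rw [starRingAut_apply] at h
    rw [starRingEnd_apply, h]
    congr 1
    rw [inv_eq_iff_mul_eq_one, ← pow_succ', Nat.sub_add_cancel hn, pow_card_eq_one']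
  · rw [starRingAut_apply, ← starRingEnd_apply,
      ← Complex.inv_eq_conj (Complex.norm_eq_one_of_pow_eq_one hz hn.ne')]
    refine inv_eq_of_mul_eq_one_right ?_
    rw [← pow_succ', Nat.sub_add_cancel hn, hz]

/-- The residues are constant along the generators of a subgroup. -/
theorem decRes_pow (χ : Cfsg.IrrCharacter G) {k : ℕ} (hk : k.Coprime (Nat.card G))
    {v : G} (hv : v ∈ P) (hv1 : v ≠ 1) :
    (decRes p M P e χ (v ^ k) : ResField M) = (decRes p M P e χ v : ResField M) := by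
  classical
  obtain ⟨σ, hσ⟩ := H45.exists_ringAut_pow (Nat.card_pos (α := G)).ne' hk
  have hv' : v ^ k ∈ P := pow_mem hv k
  have hv'1 : v ^ k ≠ 1 := fun h => hv1 (by
    obtain ⟨l, hl⟩ := exists_pow_eq_self_of_coprime (x := v)
      (hk.coprime_dvd_right (orderOf_dvd_natCard v))
    rw [← hl, h, one_pow])
  obtain ⟨j, hj⟩ := exists_orderOf_eq hM hB hm hcyc hv
  let ζ : Cfsg.IrrCharacter (CZ v) → localRing M :=
    fun φ => ⟨_, H41.isIntegral_mem_localRing (H56.Subsec.scal_isIntegral v φ)⟩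
  have hζ : ∀ φ, res M (ζ φ) = 1 := fun φ => by
    exact H56.Subsec.res_root_eq_one hM (e := j) (ζ φ)
      (H56.Subsec.scal_pow v (by rw [← hj]; exact pow_orderOf_eq_one v) φ)
  have he : (⟨_, H41.isIntegral_mem_localRing (isIntegral_dec hM hB hm hcyc χ hv' hv'1)⟩ :
      localRing M) = ∑ φ ∈ mem' (cb p M P e v), (mult v χ φ : localRing M) * ζ φ ^ k := by
    refine Subtype.ext ?_
    show dec p M P e (χ : G → ℂ) (v ^ k) = _
    rw [← ringAut_dec hM hB hm hcyc χ σ hk hσ hv hv1, dec_eq_sum hM hB hm hcyc χ hv hv1,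
      map_sum]
    simp only [ζ, AddSubmonoidClass.coe_finsetSum, MulMemClass.coe_mul, SubmonoidClass.coe_pow,
      SubringClass.coe_natCast]
    refine Finset.sum_congr rfl fun φ _ => ?_
    rw [map_mul, map_natCast, hσ _ (H56.Subsec.scal_pow v pow_card_eq_one' φ)]
  rw [← res_dec hM hB hm hcyc χ hv' hv'1, he, map_sum, decRes, Nat.cast_sum]
  exact Finset.sum_congr rfl fun φ _ => by
    rw [map_mul, map_natCast, map_pow, hζ, one_pow, mul_one]

/-- Some member of the block has the conjugate decomposition numbers. -/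
theorem exists_conj_dec {χ : Cfsg.IrrCharacter G} (hχ : χ ∈ B) :
    ∃ ψ ∈ B, ∀ v ∈ P, v ≠ 1 →
      dec p M P e (ψ : G → ℂ) v = conj (dec p M P e (χ : G → ℂ) v) := by
  classical
  have hp : p.Prime := Fact.out
  obtain ⟨a, ha⟩ := IsPGroup.iff_card.1 hm.pair.pGroup
  set n := Nat.card G with hn
  set A := p ^ n.factorization p with hA
  set A' := n / A with hA'
  have hAA : A * A' = n := Nat.ordProj_mul_ordCompl_eq_self n p
  have hco : A.Coprime A' := (Nat.coprime_ordCompl hp Nat.card_pos.ne').pow_left _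
  have hApos : 0 < A := pow_pos hp.pos _
  obtain ⟨k, hkA, hkA'⟩ := Nat.chineseRemainder hco (A - 1) 1
  have hk : k.Coprime n := by
    rw [← hAA]
    refine Nat.Coprime.mul_right ?_ ?_
    · rw [Nat.coprime_iff_gcd_eq_one, Nat.ModEq.gcd_eq hkA]
      conv => lhs; arg 2; rw [show A = (A - 1) + 1 by omega]
      rw [Nat.gcd_self_add_right, Nat.gcd_one_right]
    · rw [Nat.coprime_iff_gcd_eq_one, Nat.ModEq.gcd_eq hkA', Nat.gcd_one_left]
  let ψ : Cfsg.IrrCharacter G := H45.galIrr hk χ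
  have hreg : ∀ g : G, ¬ p ∣ orderOf g → g ^ k = g := fun g hg => by
    have hdvd : orderOf g ∣ A' :=
      ((Nat.Coprime.pow_right (n.factorization p) ((hp.coprime_iff_not_dvd.2 hg).symm))).dvd_of_dvd_mul_left
        (hAA.symm ▸ orderOf_dvd_natCard g)
    exact (pow_eq_pow_iff_modEq.2 (hkA'.of_dvd hdvd)).trans (pow_one g)
  have hψ : ψ ∈ B := by
    rw [H41.eq_blockOf_of_mem hB hχ]
    refine H40.sameBlock_of_regular hM fun g hg => ?_
    have hval : ∀ x : G, ¬ p ∣ orderOf x → (ψ : G → ℂ) x = (χ : G → ℂ) x := fun x hx => by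
      show (χ : G → ℂ) (x ^ k) = _
      rw [hreg x hx]
    rw [Cfsg.centralChar, Cfsg.centralChar, hval g hg,
      hval 1 (by rw [orderOf_one]; exact hp.not_dvd_one), sub_self]
    exact H41.memLocalIdeal_iff_res.2 ⟨zero_mem _, map_zero _⟩
  refine ⟨ψ, hψ, fun v hv hv1 => ?_⟩
  rw [← dec_inv hM hB hm hcyc χ hv hv1]
  obtain ⟨hc, -, -, -⟩ := cb_spec hM hB hm hcyc hv
  have hv' : v⁻¹ ∈ P := inv_mem hv
  have hKK : CZ v⁻¹ = CZ v := by rw [CZ, CZ, Subgroup.zpowers_inv]
  have hel := el_cb_eq hM hB hm hcyc hv' hv (Subgroup.zpowers_inv (g := v))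
  obtain ⟨hc', -, -, -⟩ := cb_spec hM hB hm hcyc hv'
  have hdp : dpart (CZ v⁻¹) (cb p M P e v⁻¹) (χ : G → ℂ) v⁻¹ =
      dpart (CZ v) (cb p M P e v) (χ : G → ℂ) v⁻¹ :=
    transport (fun K c => dpart K c (χ : G → ℂ) v⁻¹) hKK hc' hc hel
  obtain ⟨hφ, -, hdeg, -, -, -⟩ := cb_local hM hB hm hcyc hv hv1
  obtain ⟨hφ', -, hdeg', -, -, -⟩ := cb_local hM hB hm hcyc hv' (inv_ne_one.2 hv1)
  have hD : cdeg p M P e v⁻¹ = cdeg p M P e v := by
    have himg := transport (fun K (c : Set (Cfsg.IrrCharacter K)) =>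
      (fun φ : Cfsg.IrrCharacter K => (φ : K → ℂ) 1) '' c) hKK hc' hc hel
    have h1 : ¬ p ∣ orderOf (1 : CZ v) := by simpa using hp.not_dvd_one
    have h1' : ¬ p ∣ orderOf (1 : CZ v⁻¹) := by simpa using hp.not_dvd_one
    obtain ⟨φ, hφm⟩ := H41.IsPBlock.nonempty hc'
    obtain ⟨φ₂, hφ₂, he⟩ := himg.le ⟨φ, hφm, rfl⟩
    dsimp only at he
    rw [hdeg, hdeg', ← hφ' φ hφm 1 h1', ← he, hφ φ₂ hφ₂ 1 h1]
  rw [dec, dec, hdp, hD]
  congr 1
  rw [dpart, dpart]
  refine finsum_congr fun h => ?_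
  by_cases hh : p ∣ orderOf h
  · rw [H40.blockCoeff_eq_zero_of_singular hM hc hh, zero_mul, zero_mul]
  congr 1
  show (χ : G → ℂ) (((h : G) * v) ^ k) = _
  have hcm : Commute (h : G) v := H32.mem_centralizer_zpowers_iff.1 h.2
  rw [hcm.mul_pow, hreg _ (by rw [Subgroup.orderOf_coe]; exact hh)]
  refine congrArg _ (congrArg ((h : G) * ·) ?_)
  have hvA : orderOf v ∣ A := by
    obtain ⟨j, hj⟩ := exists_orderOf_eq hM hB hm hcyc hv
    rw [hj]
    refine pow_dvd_pow p ((hp.pow_dvd_iff_le_factorization Nat.card_pos.ne').1 ?_)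
    exact hj ▸ orderOf_dvd_natCard v
  rw [show v ^ k = v ^ (A - 1) from pow_eq_pow_iff_modEq.2 (hkA.of_dvd hvA)]
  refine eq_inv_of_mul_eq_one_left ?_
  rw [← pow_succ, Nat.sub_add_cancel hApos, orderOf_dvd_iff_pow_eq_one.1 hvA]

/-- Contributions are products of decomposition numbers. -/
theorem cont_eq (χ ψ : Cfsg.IrrCharacter G) {v : G} (hv : v ∈ P) (hv1 : v ≠ 1) :
    H56.Subsec.cont p v (cb p M P e v) χ ψ 1 =
      dec p M P e (χ : G → ℂ) v * conj (dec p M P e (ψ : G → ℂ) v) := by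
  classical
  obtain ⟨hc, -, -, -⟩ := cb_spec hM hB hm hcyc hv
  obtain ⟨-, hD, hPC⟩ := cb_nilpotent hM hB hm hcyc hv hv1
  have hcard : Nat.card P = p ^ Cfsg.blockDefect p (cb p M P e v) := by
    rw [← H40.card_defectGroup hM hc hD, Nat.card_congr (Subgroup.subgroupOfEquivOfLe hPC).toEquiv]
  have hsum : ∑ x : CZ v, H56.Subsec.bpart p v (cb p M P e v) χ x *
      conj (H56.Subsec.bpart p v (cb p M P e v) ψ x) =
        secPair p v (cb p M P e v) (χ : G → ℂ) (ψ : G → ℂ) := by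
    rw [secPair, Finset.sum_filter]
    refine Finset.sum_congr rfl fun x _ => ?_
    rw [H40.StarTrace.bpart_eq_secPart, H40.StarTrace.bpart_eq_secPart]
    split_ifs <;> simp
  rw [H56.Subsec.cont_one_eq hc, hsum, ← div_eq_inv_mul,
    secPair_eq hM hB hm hcyc (H26.irr_isClassFunction χ) (H26.irr_isClassFunction ψ) hv hv1]
  rw [← Nat.cast_pow, ← hcard, mul_div_cancel₀ _ (Nat.cast_ne_zero.2 Nat.card_pos.ne')]

/-- A character of height zero has units as decomposition numbers, and no member has a zero one. -/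
theorem dec_ne_zero {χ₀ : Cfsg.IrrCharacter G} (hχ₀ : χ₀ ∈ B)
    (h0 : Cfsg.blockHeight p B (χ₀ : G → ℂ) = 0) {v : G} (hv : v ∈ P) (hv1 : v ≠ 1) :
    (decRes p M P e χ₀ v : ResField M) ≠ 0 ∧
      ∀ ψ ∈ B, dec p M P e (ψ : G → ℂ) v ≠ 0 := by
  obtain ⟨hc, -, hind, hbd⟩ := cb_spec hM hB hm hcyc hv
  have hvp := exists_orderOf_eq hM hB hm hcyc hv
  have key : ∀ ψ, (hψ : ψ ∈ B) → res M ⟨_, H41.isIntegral_mem_localRing
      (H56.Subsec.isIntegral_redCont hM hvp hind hbd χ₀ hψ)⟩ ≠ 0 := fun ψ hψ h =>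
    (H56.Subsec.res_redCont_eq_zero_iff hM hvp hind hbd hχ₀ hψ).1 h h0
  refine ⟨fun hz => ?_, fun ψ hψ hz => ?_⟩
  · refine key χ₀ hχ₀ ?_
    let D : localRing M := ⟨_, H41.isIntegral_mem_localRing (isIntegral_dec hM hB hm hcyc χ₀ hv hv1)⟩
    let D' : localRing M := ⟨_, H41.isIntegral_mem_localRing
      ((isIntegral_dec hM hB hm hcyc χ₀ hv hv1).map (starRingEnd ℂ).toIntAlgHom)⟩
    have he : (⟨_, H41.isIntegral_mem_localRing
        (H56.Subsec.isIntegral_redCont hM hvp hind hbd χ₀ hχ₀)⟩ : localRing M) = D * D' := by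
      refine Subtype.ext ?_
      show H56.Subsec.redCont p v (cb p M P e v) B χ₀ χ₀ = _ * conj _
      rw [H56.Subsec.redCont, h0, pow_zero, div_one, cont_eq hM hB hm hcyc χ₀ χ₀ hv hv1]
    rw [he, map_mul, show res M D = _ from res_dec hM hB hm hcyc χ₀ hv hv1, hz, zero_mul]
  · refine key ψ hψ ?_
    have he : (⟨_, H41.isIntegral_mem_localRing
        (H56.Subsec.isIntegral_redCont hM hvp hind hbd χ₀ hψ)⟩ : localRing M) = 0 := by
      refine Subtype.ext ?_
      show H56.Subsec.redCont p v (cb p M P e v) B χ₀ ψ = 0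
      rw [H56.Subsec.redCont, cont_eq hM hB hm hcyc χ₀ ψ hv hv1, hz, map_zero, mul_zero, zero_div]
    rw [he, map_zero]

/-- The inertial group meets the centraliser of a nontrivial element in the centraliser of `P`. -/
theorem pairStab_inf_CZ {v : G} (hv : v ∈ P) (hv1 : v ≠ 1) :
    pairStab P e ⊓ CZ v = Subgroup.centralizer (P : Set G) := by
  have hS := H22.split M G
  have hb := H22.isBlockEl_elTop hB
  obtain ⟨-, hcar, -, -⟩ := cb_spec hM hB hm hcyc hv
  obtain ⟨hns, -⟩ := H40.isMaxEl_local hM hB hm (comm_of_cyclic hcyc) (carries_one_iff.1 hcar)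
  refine le_antisymm (fun t ht => H22.mem_centralizer_of_mem_stab hS hb hm hcyc hns
    (fun h => hv1 (Subgroup.mem_bot.1 (h ▸ Subgroup.mem_zpowers v))) ht.1 ht.2) (le_inf ?_ ?_)
  · exact H40.centralizer_le_pairStab' hm
  · exact Subgroup.centralizer_le (Subgroup.zpowers_le.2 hv)

theorem card_pairStab_eq :
    Nat.card (pairStab P e) = Nat.card (Subgroup.centralizer (P : Set G)) *
      (Subgroup.centralizer (P : Set G)).relIndex (pairStab P e) := by
  rw [← ((Subgroup.centralizer (P : Set G)).subgroupOf (pairStab P e)).card_mul_index,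
    Nat.card_congr (Subgroup.subgroupOfEquivOfLe (H40.centralizer_le_pairStab' hm)).toEquiv]
  rfl

open scoped Classical in
/-- The inner product with a star product by a stable function vanishing at the identity. -/
theorem classInner_star_eq [Fintype P] {η : G → ℂ} (hst : PairStable p (P, e) η) (h1 : η 1 = 0)
    (χ ψ : Cfsg.IrrCharacter G) :
    (Nat.card P : ℂ) * ((Subgroup.centralizer (P : Set G)).relIndex (pairStab P e) : ℂ) *
        Cfsg.classInner (H22.star p M (P, e) η (χ : G → ℂ)) (ψ : G → ℂ) =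
      ∑ v : {v : P // v ≠ 1}, η ((v : P) : G) *
        (dec p M P e (χ : G → ℂ) ((v : P) : G) * conj (dec p M P e (ψ : G → ℂ) ((v : P) : G))) := by
  have h := card_mul_classInner_star hM hB hm (comm_of_cyclic hcyc) (cb p M P e)
    (fun v hv => ⟨(cb_spec hM hB hm hcyc hv).1, (cb_spec hM hB hm hcyc hv).2.1⟩) hst
    (H26.irr_isClassFunction χ) (H26.irr_isClassFunction ψ)
  rw [← Finset.sum_subset (Finset.subset_univ (Finset.univ.filter fun v : P => v ≠ 1))
    (fun v _ hv => by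
      simp only [Finset.mem_filter, Finset.mem_univ, true_and, not_not] at hv
      rw [hv, OneMemClass.coe_one, h1, zero_mul]),
    Finset.sum_subtype _ (p := fun v : P => v ≠ 1) (F := inferInstance) (fun v => by simp)] at h
  rw [card_pairStab_eq hM hB hm hcyc] at h
  have hq0 : (Nat.card P : ℂ) ≠ 0 := Nat.cast_ne_zero.2 Nat.card_pos.ne'
  have hC0 : (Nat.card (Subgroup.centralizer (P : Set G)) : ℂ) ≠ 0 :=
    Nat.cast_ne_zero.2 Nat.card_pos.ne'
  push_cast at h
  rw [Finset.sum_congr rfl (g := fun v : {v : P // v ≠ 1} =>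
    (Nat.card (Subgroup.centralizer (P : Set G)) : ℂ) / (Nat.card P : ℂ) * (η ((v : P) : G) *
      (dec p M P e (χ : G → ℂ) ((v : P) : G) * conj (dec p M P e (ψ : G → ℂ) ((v : P) : G)))))
    fun v _ => by
      have hv1 : ((v : P) : G) ≠ 1 := fun h' => v.2 (Subtype.ext h')
      rw [pairStab_inf_CZ hM hB hm hcyc (v : P).2 hv1, div_mul_comm,
        secPair_eq hM hB hm hcyc (H26.irr_isClassFunction χ) (H26.irr_isClassFunction ψ)
          (v : P).2 hv1]
      field_simp, ← Finset.mul_sum] at h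
  field_simp at h
  refine Eq.trans ?_ (h.trans (Finset.sum_congr (by ext; simp) fun v _ => mul_assoc _ _ _))
  ring

/-- The number of characters exceeds the rank by the number of orbits on the nontrivial elements. -/
theorem card_eq_blockRank_add :
    (Subgroup.centralizer (P : Set G)).relIndex (pairStab P e) * Nat.card B + 1 =
      (Subgroup.centralizer (P : Set G)).relIndex (pairStab P e) * Cfsg.blockRank p B +
        Nat.card P := by
  classical
  have : Fintype P := Fintype.ofFinite P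
  have h := H40.Watanabe.card_eq_sum_wgt hM hB hm (comm_of_cyclic hcyc)
  have h1 : H40.StarTrace.wgt p M P e (((1 : P) : P) : G) =
      Cfsg.blockRank p B * Nat.card (pairStab P e) := by
    have hC : Subgroup.centralizer ({((1 : P) : G)} : Set G) = ⊤ := by
      refine eq_top_iff.2 fun x _ => ?_
      simp [Subgroup.mem_centralizer_singleton_iff]
    rw [H40.StarTrace.wgt, hC, inf_top_eq,
      H40.Descend.lrk_top hm.pair.pGroup hm.pair.block.ne_zero hB hm.below]
  have h2 : ∀ v : P, v ≠ 1 → H40.StarTrace.wgt p M P e (v : G) =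
      Nat.card (Subgroup.centralizer (P : Set G)) := fun v hv => by
    have hv1 : (v : G) ≠ 1 := fun h' => hv (Subtype.ext h')
    rw [H40.StarTrace.wgt, ← H40.centralizer_zpowers_eq, pairStab_inf_CZ hM hB hm hcyc v.2 hv1]
    obtain ⟨hc, hcar, -, -⟩ := cb_spec hM hB hm hcyc v.2
    obtain ⟨-, hmax⟩ := H40.isMaxEl_local hM hB hm (comm_of_cyclic hcyc) (carries_one_iff.1 hcar)
    rw [H40.Descend.lrk_eq hm.pair.pGroup hmax.pair.le hm.pair.block.ne_zero ⟨hc, hmax.below⟩,
      (cb_local hM hB hm hcyc v.2 hv1).2.1, one_mul]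
  rw [← Finset.add_sum_erase _ _ (Finset.mem_univ (1 : P)), h1,
    Finset.sum_congr rfl fun v hv => h2 v (Finset.mem_erase.1 hv).1, Finset.sum_const,
    Finset.card_erase_of_mem (Finset.mem_univ _), Finset.card_univ, ← Nat.card_eq_fintype_card,
    smul_eq_mul, card_pairStab_eq hM hB hm hcyc] at h
  set c := Nat.card (Subgroup.centralizer (P : Set G))
  set i := (Subgroup.centralizer (P : Set G)).relIndex (pairStab P e)
  have hc : 0 < c := Nat.card_pos
  have hP : 1 ≤ Nat.card P := Nat.card_pos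
  have h3 : i * Nat.card B = i * Cfsg.blockRank p B + (Nat.card P - 1) := by
    refine Nat.eq_of_mul_eq_mul_left hc ?_
    linarith [h]
  omega

end Cfsg.Agent.H57.Cyclic
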