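import Cfsg.Agent.H57.Cyclic.Shape
import Cfsg.Agent.H57.Cyclic.CyclicAut
import Cfsg.Agent.H57.FrobLinear
import Cfsg.Agent.H57.InducedSet
import Cfsg.Agent.H43.CharKer
import Cfsg.Agent.H25.CharValues

/-!
# The model: a cyclic `p`-group extended by a group of automorphisms of order dividing `p - 1`
-/

set_option autoImplicit false

open scoped ComplexConjugate

namespace Cfsg.Agent.H57.Cyclic

open Cfsg.Agent.H42 (blockFinset mem_blockFinset)
open Cfsg.Agent.H57 (linFun LinTriv indLin_apply indLin_irr indLin_off indLin_one indLin_inner_one)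

universe v w

/-- The automorphisms of `P` induced by conjugation on a copy of it. -/
noncomputable def conjAut {F : Type v} [Group F] {Q : Subgroup F} [Q.Normal] {P : Type w} [Group P]
    (ι : P ≃* Q) : F →* MulAut P :=
  (MulAut.congr ι.symm).toMonoidHom.comp MulAut.conjNormal

section Structure

variable {F : Type v} [Group F] [Finite F] {Q : Subgroup F} {p : ℕ} [Fact p.Prime]

/-- A `p`-subgroup of index dividing `p - 1` is normal. -/
theorem normal_of_index_dvd_pred (hQ : IsPGroup p Q) (hd : Q.index ∣ p - 1) : Q.Normal := by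
  have hp : p.Prime := Fact.out
  have hp1 : 0 < p - 1 := Nat.sub_pos_of_lt hp.one_lt
  have hlt : Q.index < p := (Nat.le_of_dvd hp1 hd).trans_lt (Nat.sub_lt hp.pos one_pos)
  have hndvd : ¬ p ∣ Q.index := Nat.not_dvd_of_pos_of_lt
    (Nat.pos_of_ne_zero Subgroup.index_ne_zero_of_finite) hlt
  let S : Sylow p F := hQ.toSylow hndvd
  have hS : (S : Subgroup F) = Q := rfl
  have h1 : Nat.card (Sylow p F) = 1 := by
    have hle : Nat.card (Sylow p F) ≤ Q.index :=
      Nat.le_of_dvd (Nat.pos_of_ne_zero Subgroup.index_ne_zero_of_finite) (hS ▸ S.card_dvd_index)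
    have hmod := card_sylow_modEq_one p F
    rw [Nat.ModEq, Nat.mod_eq_of_lt (hle.trans_lt hlt), Nat.mod_eq_of_lt hp.one_lt] at hmod
    exact hmod
  have : Subsingleton (Sylow p F) := (Nat.card_eq_one_iff_unique.1 h1).1
  exact hS ▸ Sylow.normal_of_subsingleton S

variable {P : Type w} [Group P] [Finite P] [IsCyclic P] [Q.Normal] (ι : P ≃* Q)
  (hQ : IsPGroup p Q) (hQC : Subgroup.centralizer (Q : Set F) = Q) (hd : Q.index ∣ p - 1)

omit [Finite F] [Finite P] [IsCyclic P] in
theorem conjAut_apply (x : F) (v : P) :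
    ((ι (conjAut ι x v)) : F) = x * (ι v : F) * x⁻¹ := by
  simp [conjAut, MulAut.congr]

omit [Finite F] [Finite P] [IsCyclic P] in
include hQC in
theorem ker_conjAut : (conjAut ι).ker = Q := by
  ext x
  rw [MonoidHom.mem_ker]
  constructor
  · intro h
    rw [← hQC]
    refine Subgroup.mem_centralizer_iff.2 fun y hy => ?_
    have h1 := conjAut_apply ι x (ι.symm ⟨y, hy⟩)
    rw [h, MulAut.one_apply, MulEquiv.apply_symm_apply] at h1
    exact eq_mul_inv_iff_mul_eq.1 h1
  · intro h
    refine MulEquiv.ext fun v => ι.injective (Subtype.ext ?_)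
    rw [conjAut_apply, MulAut.one_apply,
      show x * (ι v : F) = (ι v : F) * x from
        (Subgroup.mem_centralizer_iff.1 (hQC.symm ▸ h : x ∈ Subgroup.centralizer (Q : Set F))
          _ (ι v).2).symm, mul_inv_cancel_right]

omit [Finite P] [IsCyclic P] [Finite F] in
include hQC in
theorem card_range_conjAut : Nat.card (conjAut ι).range = Q.index := by
  rw [← Subgroup.index_ker, ker_conjAut ι hQC]

include ι hQ hQC hd in
/-- An element centralising an element of `Q` other than the identity lies in `Q`. -/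
theorem mem_of_commute {k : F} (hk : k ∈ Q) (hk1 : k ≠ 1) (x : F) (h : x * k = k * x) : x ∈ Q := by
  have hp : p.Prime := Fact.out
  have hP : IsPGroup p P := hQ.of_equiv ι.symm
  have hpe : ¬ p ∣ Q.index := Nat.not_dvd_of_pos_of_lt
    (Nat.pos_of_ne_zero Subgroup.index_ne_zero_of_finite)
    ((Nat.le_of_dvd (Nat.sub_pos_of_lt hp.one_lt) hd).trans_lt (Nat.sub_lt hp.pos one_pos))
  have hpow : conjAut ι x ^ Q.index = 1 := by
    have h1 : (⟨conjAut ι x, x, rfl⟩ : (conjAut ι).range) ^ Nat.card (conjAut ι).range = 1 :=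
      pow_card_eq_one'
    rw [card_range_conjAut ι hQC] at h1
    exact congrArg Subtype.val h1
  have hne : ι.symm ⟨k, hk⟩ ≠ 1 := fun h' => hk1 (congrArg Subtype.val
    ((MulEquiv.map_eq_one_iff ι.symm).1 h'))
  have h1 := aut_eq_one_of_fixed hP hpow hpe hne (ι.injective (Subtype.ext (by
    rw [conjAut_apply, MulEquiv.apply_symm_apply]
    simp [h])))
  rwa [← MonoidHom.mem_ker, ker_conjAut ι hQC] at h1

include ι hQ hQC hd in
/-- The elements of order divisible by `p` are the elements of `Q` other than the identity. -/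
theorem mem_of_dvd_orderOf {x : F} (hx : p ∣ orderOf x) : x ∈ Q ∧ x ≠ 1 := by
  have hp : p.Prime := Fact.out
  refine ⟨?_, fun h => hp.not_dvd_one (orderOf_one (G := F) ▸ h ▸ hx)⟩
  have hpe : ¬ p ∣ Q.index := Nat.not_dvd_of_pos_of_lt
    (Nat.pos_of_ne_zero Subgroup.index_ne_zero_of_finite)
    ((Nat.le_of_dvd (Nat.sub_pos_of_lt hp.one_lt) hd).trans_lt (Nat.sub_lt hp.pos one_pos))
  set y := x ^ (orderOf x / p) with hy
  have hyo : orderOf y = p := by
    rw [hy, orderOf_pow_orderOf_div (orderOf_pos x).ne' hx]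
  have hyQ : y ∈ Q := by
    rw [← QuotientGroup.eq_one_iff, ← orderOf_eq_one_iff]
    have h1 : orderOf (y : F ⧸ Q) ∣ p := hyo ▸ orderOf_map_dvd (QuotientGroup.mk' Q) y
    refine ((Nat.dvd_prime hp).1 h1).resolve_right fun h2 => hpe ?_
    rw [← h2, Subgroup.index_eq_card]
    exact orderOf_dvd_natCard _
  exact mem_of_commute ι hQ hQC hd hyQ (fun h => hp.ne_one (by rw [← hyo, h, orderOf_one])) x
    (Commute.pow_right (Commute.refl x) _).eq

end Structure

section Characters

variable {F : Type v} [Group F] [Fintype F] {Q : Subgroup F} {p : ℕ} [Fact p.Prime]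
  {P : Type w} [Group P] [Finite P] [IsCyclic P] [Q.Normal] (ι : P ≃* Q)
  (hQ : IsPGroup p Q) (hQC : Subgroup.centralizer (Q : Set F) = Q) (hd : Q.index ∣ p - 1)

omit [Finite P] [IsCyclic P] in
open scoped Classical in
include hQC in
/-- A sum over `F` of a function of the induced automorphism. -/
theorem sum_conjAut (g : MulAut P → ℂ) :
    ∑ x : F, g (conjAut ι x) =
      (Nat.card Q : ℂ) * ∑ᶠ a ∈ ((conjAut ι).range : Set (MulAut P)), g a := by
  let e := (Subgroup.groupEquivQuotientProdSubgroup (s := (conjAut ι).ker))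
  let q := QuotientGroup.quotientKerEquivRange (conjAut ι)
  have h1 : ∑ x : F, g (conjAut ι x) =
      ∑ z : (F ⧸ (conjAut ι).ker) × (conjAut ι).ker, g (q z.1 : MulAut P) :=
    Fintype.sum_equiv e _ _ fun x => by
      have : (e x).1 = (x : F ⧸ (conjAut ι).ker) := rfl
      rw [this]
      rfl
  rw [h1, Fintype.sum_prod_type]
  simp only [Finset.sum_const, Finset.card_univ, ← Nat.card_eq_fintype_card, nsmul_eq_mul]
  have hk : Nat.card (conjAut ι).ker = Nat.card Q := by rw [ker_conjAut ι hQC]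
  rw [← Finset.mul_sum, hk, ← finsum_set_coe_eq_finsum_mem, ← finsum_eq_sum_of_fintype]
  congr 1
  exact finsum_eq_of_bijective q q.bijective fun z => rfl

omit [Finite P] [IsCyclic P] in
include hQC in
/-- The values on `Q` of an induced linear character. -/
theorem indLin_orbitSum (f : Q →* ℂˣ) (v : P) :
    Cfsg.indFun Q (linFun f) (ι v : F) =
      ∑ᶠ a ∈ ((conjAut ι).range : Set (MulAut P)), ((f.comp ι.toMonoidHom) (a v) : ℂ) := by
  rw [indLin_apply, inv_mul_eq_iff_eq_mul₀ (Nat.cast_ne_zero.2 Nat.card_pos.ne'),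
    ← sum_conjAut ι hQC fun a => ((f.comp ι.toMonoidHom) (a v) : ℂ)]
  refine Fintype.sum_equiv (Equiv.inv F) _ _ fun x => ?_
  simp only [Equiv.inv_apply, MonoidHom.comp_apply, MulEquiv.coe_toMonoidHom]
  congr 2
  exact Subtype.ext (by rw [conjAut_apply, MulAut.conjNormal_apply])

omit [Finite P] in
include ι hQC in
/-- A character trivial on `Q` is linear. -/
theorem degree_one_of_trivial (η : Cfsg.IrrCharacter F)
    (h : ∀ x ∈ Q, (η : F → ℂ) x = (η : F → ℂ) 1) : (η : F → ℂ) 1 = 1 := by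
  classical
  obtain ⟨n, ρ, hρ, e⟩ := η.2
  have hQ1 : ∀ x ∈ Q, ρ x = LinearMap.id := fun x hx => by
    rw [← H25.char_eq_degree_iff, show ρ.character x = (η : F → ℂ) x from congrFun e x, h x hx,
      ← ρ.char_one]
    exact (congrFun e 1).symm
  have hcom : ∀ a b : F, ρ a ∘ₗ ρ b = ρ b ∘ₗ ρ a := fun a b => by
    have hmem : a * b * a⁻¹ * b⁻¹ ∈ Q := by
      rw [← ker_conjAut ι hQC, MonoidHom.mem_ker, map_mul, map_mul, map_mul, map_inv, map_inv]
      have hab : ∀ α β : MulAut P, α * β = β * α := fun α β =>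
        (IsCyclic.mulAutMulEquiv P).injective (by rw [map_mul, map_mul, mul_comm])
      rw [hab (conjAut ι a), mul_inv_cancel_right, mul_inv_cancel]
    rw [← Module.End.mul_eq_comp, ← Module.End.mul_eq_comp, ← map_mul, ← map_mul,
      show a * b = a * b * a⁻¹ * b⁻¹ * (b * a) by group, map_mul, hQ1 _ hmem]
    rfl
  have hscal : ∀ g, ∃ c : ℂ, ρ g = c • LinearMap.id :=
    fun g => ⟨_, H25.eq_smul_id_of_comm ρ (ρ g) (hcom g)⟩
  obtain ⟨hnt, hsimp⟩ := (H26.isIrreducible_iff_forall ρ).1 hρ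
  obtain ⟨v, hv⟩ := exists_ne (0 : Fin n → ℂ)
  have htop := (hsimp (Submodule.span ℂ {v}) fun g w hw => by
    obtain ⟨c, hc⟩ := hscal g
    rw [hc, LinearMap.smul_apply, LinearMap.id_apply]
    exact Submodule.smul_mem _ _ hw).resolve_left (by simpa using hv)
  have h1 : Module.finrank ℂ (Fin n → ℂ) = 1 := by
    rw [← finrank_top ℂ (Fin n → ℂ), ← htop, finrank_span_singleton hv]
  rw [← congrFun e 1, ρ.char_one, h1, Nat.cast_one]

open scoped Classical in
omit [Finite P] [IsCyclic P] [Fact p.Prime] in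
include hQC in
/-- A character which is not trivial on `Q` is induced from a linear character. -/
theorem exists_eq_indLin (hfpf : ∀ k ∈ Q, k ≠ 1 → ∀ x : F, x * k = k * x → x ∈ Q)
    (η : Cfsg.IrrCharacter F) (h : ¬ ∀ x ∈ Q, (η : F → ℂ) x = (η : F → ℂ) 1) :
    ∃ f : Q →* ℂˣ, f ≠ 1 ∧ (η : F → ℂ) = Cfsg.indFun Q (linFun f) := by
  by_contra hne
  push Not at hne
  have hcomm : ⁅Q, Q⁆ ≤ (⊥ : Subgroup F) :=
    (Subgroup.commutator_eq_bot_iff_le_centralizer.2 hQC.ge).le
  have havg : ∀ y : Q, H57.avg Q (⊥ : Subgroup F) (η : F → ℂ) y = (η : F → ℂ) y := fun y => by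
    suffices key : ∀ D : Subgroup F, D = ⊥ → H57.avg Q D (η : F → ℂ) y = (η : F → ℂ) y from
      key ⊥ rfl
    intro D hD
    rw [H57.avg, Finset.sum_congr rfl (fun (d : D) _ => by
        rw [Subgroup.mem_bot.1 (hD.le d.2), mul_one]),
      Finset.sum_const, nsmul_eq_mul, Finset.card_univ, Fintype.card_eq_nat_card,
      inv_mul_cancel_left₀ (H57.card_sub_ne_zero _)]
  have hval : ∀ y : Q, (η : F → ℂ) y =
      Cfsg.classInner (η : F → ℂ) (Cfsg.indFun Q (linFun (1 : Q →* ℂˣ))) := fun y => by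
    rw [← havg, H57.avg_eq bot_le hcomm (H26.irr_isClassFunction η),
      Finset.sum_eq_single (H57.linTrivOne Q ⊥)]
    · simp [H57.linTrivOne]
    · intro f _ hf
      have hf1 : f.1 ≠ 1 := fun e => hf (Subtype.ext e)
      have h0 : Cfsg.classInner (η : F → ℂ) (Cfsg.indFun Q (linFun f.1)) = 0 :=
        (H26.classInner_irr η ⟨_, indLin_irr hfpf hf1⟩).trans
          (if_neg fun e => hne f.1 hf1 (congrArg Subtype.val e))
      rw [h0, zero_mul]
    · intro h'; exact absurd (Finset.mem_univ _) h'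
  exact h fun x hx => by rw [hval ⟨x, hx⟩, show (η : F → ℂ) 1 = _ from hval 1]

end Characters

section Main

variable {F : Type v} [Group F] [Fintype F] {Q : Subgroup F} {p : ℕ} [Fact p.Prime]
  {P : Type w} [Group P] [Finite P] [IsCyclic P] [Q.Normal] (ι : P ≃* Q)
  (hQ : IsPGroup p Q) (hQC : Subgroup.centralizer (Q : Set F) = Q) (hd : Q.index ∣ p - 1)
  {M : Ideal Cfsg.AlgInt}

/-- The columns of the model at the elements of `P` other than the identity. -/
def modelD (ι : P ≃* Q) (η : Cfsg.IrrCharacter F) (o : {x : P // x ≠ 1}) : ℂ :=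
  (η : F → ℂ) ((ι (o : P) : Q) : F)

omit [Fintype F] [Finite P] [IsCyclic P] [Q.Normal] in
theorem dvd_orderOf_ι (hQ : IsPGroup p Q) (o : {x : P // x ≠ 1}) :
    p ∣ orderOf ((ι (o : P) : Q) : F) := by
  obtain ⟨k, hk⟩ := (IsPGroup.iff_orderOf).1 hQ (ι (o : P))
  rw [Subgroup.orderOf_coe, hk]
  refine dvd_pow_self p fun h => o.2 ?_
  rw [h, pow_zero, orderOf_eq_one_iff] at hk
  exact (MulEquiv.map_eq_one_iff ι).1 hk

open scoped Classical in
include hQ hQC hd in
/-- The table of the model. -/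
theorem model_table (hM : Cfsg.IsPModular p M) :
    Table p M (Nat.card Q) (Set.univ : Set (Cfsg.IrrCharacter F)) {x : P // x ≠ 1} (modelD ι) := by
  have := hM.2.1
  refine ⟨fun x hx => ?_, fun s hs o => ?_⟩
  · obtain ⟨hxQ, hx1⟩ := mem_of_dvd_orderOf ι hQ hQC hd hx
    refine ⟨1, fun _ => ⟨ι.symm ⟨x, hxQ⟩, fun h => hx1 (congrArg Subtype.val
      ((MulEquiv.map_eq_one_iff ι.symm).1 h))⟩, fun _ => 1, fun _ => isIntegral_one, fun _ => ?_,
      fun η _ => by simp [modelD]⟩
    have hc : Subgroup.centralizer ({x} : Set F) = Q := by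
      refine le_antisymm (fun y hy => mem_of_commute ι hQ hQC hd hxQ hx1 y
        (Subgroup.mem_centralizer_singleton_iff.1 hy)) fun y hy => ?_
      refine Subgroup.mem_centralizer_singleton_iff.2 ?_
      exact (Subgroup.mem_centralizer_iff.1 (hQC.symm ▸ hy : y ∈ Subgroup.centralizer (Q : Set F))
        x hxQ).symm
    rw [hc, mul_one, div_self (Nat.cast_ne_zero.2 Nat.card_pos.ne')]
    exact (H41.localRing M).one_mem
  · have he : blockFinset (Set.univ : Set (Cfsg.IrrCharacter F)) = Finset.univ := by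
      ext η; simp [mem_blockFinset]
    have h := H26.column_orthogonality s (((ι (o : P) : Q) : F))⁻¹
    rw [he]
    simp only [H26.irr_inv, Complex.conj_conj] at h
    simp only [modelD]
    rw [h, Cfsg.Agent.H26.classIndicator, if_neg, mul_zero]
    intro hc
    obtain ⟨g, hg⟩ := isConj_iff.1 hc
    apply hs
    rw [← H42.orderOf_conj_eq g s, hg, orderOf_inv]
    exact dvd_orderOf_ι ι hQ o

open scoped Classical in
include hQ hQC hd in
/-- The products of two columns of the model are divisible by the order of `Q`. -/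
theorem model_products (hM : Cfsg.IsPModular p M) (o o' : {x : P // x ≠ 1}) :
    Cfsg.MemLocalRing M ((∑ η ∈ blockFinset (Set.univ : Set (Cfsg.IrrCharacter F)),
      modelD ι η o * modelD ι η o') / (Nat.card Q : ℂ)) := by
  have := hM.2.1
  have he : blockFinset (Set.univ : Set (Cfsg.IrrCharacter F)) = Finset.univ := by
    ext η; simp [mem_blockFinset]
  have h := H26.column_orthogonality ((ι (o : P) : Q) : F) (((ι (o' : P) : Q) : F))⁻¹
  simp only [H26.irr_inv, Complex.conj_conj] at h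
  rw [he]
  simp only [modelD]
  rw [h, Cfsg.Agent.H26.classIndicator]
  have hx1 : (((ι (o' : P) : Q) : F))⁻¹ ≠ 1 := fun e => o'.2
    ((MulEquiv.map_eq_one_iff ι).1 (Subtype.ext (inv_eq_one.1 e)))
  have hc : Subgroup.centralizer ({(((ι (o' : P) : Q) : F))⁻¹} : Set F) = Q := by
    refine le_antisymm (fun y hy => mem_of_commute ι hQ hQC hd (Q.inv_mem (ι (o' : P)).2) hx1 y
      (Subgroup.mem_centralizer_singleton_iff.1 hy)) fun y hy => ?_
    refine Subgroup.mem_centralizer_singleton_iff.2 ?_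
    exact (Subgroup.mem_centralizer_iff.1 (hQC.symm ▸ hy : y ∈ Subgroup.centralizer (Q : Set F))
      _ (Q.inv_mem (ι (o' : P)).2)).symm
  rw [hc]
  split_ifs
  · rw [mul_one, div_self (Nat.cast_ne_zero.2 Nat.card_pos.ne')]
    exact (H41.localRing M).one_mem
  · rw [mul_zero, zero_div]
    exact (H41.localRing M).zero_mem

/-- The characters trivial on `Q`. -/
def modelX (Q : Subgroup F) : Set (Cfsg.IrrCharacter F) :=
  {η | ∀ x ∈ Q, (η : F → ℂ) x = (η : F → ℂ) 1}

open scoped Classical in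
include hQ hQC hd in
/-- The shape of the model. -/
theorem model_shape :
    Shape (conjAut ι).range Q.index (Set.univ : Set (Cfsg.IrrCharacter F)) (modelD ι) (modelX Q)
      (fun _ => 1) 1 := by
  have hfpf : ∀ k ∈ Q, k ≠ 1 → ∀ x : F, x * k = k * x → x ∈ Q :=
    fun k hk hk1 x hx => mem_of_commute ι hQ hQC hd hk hk1 x hx
  have hnX : ∀ f : Q →* ℂˣ, (hf : f ≠ 1) →
      (⟨_, indLin_irr hfpf hf⟩ : Cfsg.IrrCharacter F) ∉ modelX Q := by
    intro f hf hX
    have h := indLin_inner_one (K := Q) hf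
    rw [H25.classInner_indFun_right Q _ _ (H26.irr_isClassFunction
      (⟨_, indLin_irr hfpf hf⟩ : Cfsg.IrrCharacter F))] at h
    change (Nat.card Q : ℂ)⁻¹ * ∑ z : Q, Cfsg.indFun Q (linFun f) (z : F) *
      conj (linFun (1 : Q →* ℂˣ) z) = 0 at h
    rw [Finset.sum_congr rfl fun z _ => by
      rw [show Cfsg.indFun Q (linFun f) (z : F) = _ from hX z z.2]] at h
    simp [linFun, indLin_one, Subgroup.index_ne_zero_of_finite] at h
  refine ⟨Set.subset_univ _, ?_, fun _ _ => Or.inl rfl, Or.inl rfl, fun η hη => funext fun o => ?_,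
    fun η hη => ?_, fun η hη η' hη' h => ?_, fun g hg => ?_⟩
  · have h := H57.sum_sq_above Q
    rw [Finset.sum_congr rfl fun η hη => by
      rw [degree_one_of_trivial ι hQC η (Finset.mem_filter.1 hη).2, mul_one]] at h
    simp only [Finset.sum_const, nsmul_eq_mul, mul_one] at h
    rw [← Set.ncard_coe_finset] at h
    have hs : ((Finset.univ.filter fun η : Cfsg.IrrCharacter F =>
        ∀ a ∈ Q, η.1 a = η.1 1) : Set (Cfsg.IrrCharacter F)) = modelX Q := by
      ext η; simp [modelX]
    rw [hs] at h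
    exact_mod_cast h
  · show (η : F → ℂ) _ = _
    rw [hη _ (ι (o : P)).2, degree_one_of_trivial ι hQC η hη]
    simp
  · obtain ⟨f, hf, he⟩ := exists_eq_indLin hQC hfpf η hη.2
    refine ⟨f.comp ι.toMonoidHom, fun h => hf (MonoidHom.ext fun k => ?_), funext fun o => ?_⟩
    · have := DFunLike.congr_fun h (ι.symm k)
      simpa using this
    · simp only [modelD, Int.cast_one, one_mul, he]
      exact indLin_orbitSum ι hQC f (o : P)
  · obtain ⟨f, hf, he⟩ := exists_eq_indLin hQC hfpf η hη.2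
    obtain ⟨f', hf', he'⟩ := exists_eq_indLin hQC hfpf η' hη'.2
    refine Subtype.ext (funext fun x => ?_)
    by_cases hx : x ∈ Q
    · by_cases hx1 : x = 1
      · rw [he, he', hx1, indLin_one, indLin_one]
      · have h' := congrFun h ⟨ι.symm ⟨x, hx⟩, fun e => hx1 (congrArg Subtype.val
          ((MulEquiv.map_eq_one_iff ι.symm).1 e))⟩
        simpa [modelD] using h'
    · rw [he, he', indLin_off f hx, indLin_off f' hx]
  · obtain ⟨l, hl, rfl⟩ := hg
    have hf : l.comp ι.symm.toMonoidHom ≠ 1 := fun h => hl (MonoidHom.ext fun v => by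
      have := DFunLike.congr_fun h (ι v)
      simpa using this)
    refine ⟨⟨_, indLin_irr hfpf hf⟩, ⟨trivial, hnX _ hf⟩, funext fun o => ?_⟩
    simp only [modelD, Int.cast_one, one_mul]
    rw [indLin_orbitSum ι hQC]
    simp

end Main

end Cfsg.Agent.H57.Cyclic
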