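import Cfsg.Agent.H57.Cyclic.BlockTable
import Cfsg.Agent.H57.Cyclic.FrobF
import Cfsg.Agent.H22.PairNilpotentDict
import Cfsg.Agent.H41.DefectLocal

/-!
# Perfect isometries of blocks with cyclic defect groups

A block with cyclic defect group is perfectly isometric to the group `P ⋊ E` and to its correspondent in
every subgroup containing the normaliser of the defect group.
-/

set_option autoImplicit false
set_option linter.unusedSectionVars false

open scoped ComplexConjugate Classical

namespace Cfsg.Agent.H57.Cyclic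

open Cfsg
open Cfsg.Agent.H22 (IsMaxEl el elTop pairStab emb cj)
open Cfsg.Agent.H41 (ResField res localRing)
open Cfsg.Agent.H42 (blockFinset mem_blockFinset)
open Cfsg.Agent.H43 (irrCongr)

universe u v w w'

section Transfer

variable {G : Type u} [Group G] [Fintype G] {P : Type w} [Group P] {P' : Type w'} [Group P']

/-- The nontrivial elements of isomorphic groups. -/
def congrV (σ : P ≃* P') : {x : P // x ≠ 1} ≃ {x : P' // x ≠ 1} :=
  σ.toEquiv.subtypeEquiv fun _ => (not_congr (MulEquiv.map_eq_one_iff σ)).symm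

/-- A table moved along a map onto the index set. -/
theorem Table.reindex {p q : ℕ} {M : Ideal Cfsg.AlgInt} {B : Set (Cfsg.IrrCharacter G)}
    {D : Cfsg.IrrCharacter G → {x : P' // x ≠ 1} → ℂ} (t : Table p M q B {x : P' // x ≠ 1} D)
    (σ : P ≃* P') : Table p M q B {x : P // x ≠ 1} (fun χ x => D χ (congrV σ x)) where
  expand x hx := by
    obtain ⟨n, o, φ, h1, h2, h3⟩ := t.expand x hx
    exact ⟨n, fun i => (congrV σ).symm (o i), φ, h1, h2, fun χ hχ => by
      rw [h3 χ hχ]; simp⟩
  orth s hs o := t.orth s hs _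

/-- Orbit sums moved along an isomorphism. -/
theorem mem_orbitSums_congr (σ : P ≃* P') (E : Subgroup (MulAut P')) {f : {x : P' // x ≠ 1} → ℂ}
    (hf : f ∈ orbitSums E) :
    (fun x => f (congrV σ x)) ∈ orbitSums (E.map (MulAut.congr σ.symm).toMonoidHom) := by
  obtain ⟨l, hl, rfl⟩ := hf
  refine ⟨l.comp σ.toMonoidHom, fun h => hl (MonoidHom.ext fun v => ?_), funext fun x => ?_⟩
  · simpa using DFunLike.congr_fun h (σ.symm v)
  refine finsum_mem_eq_of_bijOn (MulAut.congr σ.symm) ⟨fun a ha => ⟨a, ha, rfl⟩,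
    fun a _ b _ h => (MulAut.congr σ.symm).injective h, fun b hb => hb⟩ fun a _ => ?_
  simp [MulAut.congr, congrV]

/-- A shape moved along an isomorphism. -/
theorem Shape.congr {E : Subgroup (MulAut P')} {e : ℕ} {B X : Set (Cfsg.IrrCharacter G)}
    {D : Cfsg.IrrCharacter G → {x : P' // x ≠ 1} → ℂ} {d : Cfsg.IrrCharacter G → ℤ} {d₀ : ℤ}
    (h : Shape E e B D X d d₀) (σ : P ≃* P') :
    Shape (E.map (MulAut.congr σ.symm).toMonoidHom) e B (fun χ x => D χ (congrV σ x)) X d d₀ where
  subset := h.subset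
  card := h.card
  sign := h.sign
  sign₀ := h.sign₀
  const χ hχ := funext fun x => congrFun (h.const χ hχ) _
  rest := by
    refine ⟨fun χ hχ => mem_orbitSums_congr σ E (h.rest.mapsTo hχ), fun χ hχ χ' hχ' he =>
      h.rest.injOn hχ hχ' (funext fun x => ?_), fun f hf => ?_⟩
    · simpa using congrFun he ((congrV σ).symm x)
    · have hf' := mem_orbitSums_congr σ.symm _ hf
      rw [Subgroup.map_map, MulEquiv.symm_symm,
        show ((MulAut.congr σ).toMonoidHom.comp (MulAut.congr σ.symm).toMonoidHom) =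
          MonoidHom.id _ from MonoidHom.ext fun a => MulEquiv.ext fun v => by simp [MulAut.congr],
        Subgroup.map_id] at hf'
      obtain ⟨χ, hχ, he⟩ := h.rest.surjOn hf'
      refine ⟨χ, hχ, funext fun x => ?_⟩
      have h1 := congrFun he (congrV σ x)
      simpa [congrV] using h1

end Transfer

variable {G : Type u} [Group G] [Fintype G] {p : ℕ} [Fact p.Prime] {M : Ideal Cfsg.AlgInt}
  [M.IsMaximal] [CharP (ResField M) p]

/-- The table and shape of a block with cyclic defect group. -/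
theorem exists_table_shape {B : Set (Cfsg.IrrCharacter G)} {P : Subgroup G}
    {e : MonoidAlgebra (ResField M) G} (hM : Cfsg.IsPModular p M) (hB : Cfsg.IsPBlock M B)
    (hm : IsMaxEl p ⊤ (elTop M B) (P, e)) (hcyc : IsCyclic P) (hP1 : P ≠ ⊥) :
    ∃ (D : Cfsg.IrrCharacter G → {x : P // x ≠ 1} → ℂ) (X : Set (Cfsg.IrrCharacter G))
      (d : Cfsg.IrrCharacter G → ℤ) (d₀ : ℤ),
      Table p M (Nat.card P) B {x : P // x ≠ 1} D ∧
      Shape (inertAut P e) ((Subgroup.centralizer (P : Set G)).relIndex (pairStab P e)) B D X d d₀ ∧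
      Cfsg.blockRank p B = (Subgroup.centralizer (P : Set G)).relIndex (pairStab P e) := by
  have : Fintype P := Fintype.ofFinite P
  obtain ⟨γ, X, d, d₀, hγi, hγn, hS, hl⟩ := exists_values hM hB hm hcyc hP1
  exact ⟨_, X, d, d₀, block_table hM hB hm hcyc hγi hγn, hS, hl⟩

/-- The isometry with the model. -/
theorem exists_isometry_model {B : Set (Cfsg.IrrCharacter G)} {P : Subgroup G}
    {e : MonoidAlgebra (ResField M) G} (hM : Cfsg.IsPModular p M) (hB : Cfsg.IsPBlock M B)
    (hm : IsMaxEl p ⊤ (elTop M B) (P, e)) (hcyc : IsCyclic P) (hP1 : P ≠ ⊥) {i : ℕ}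
    (hi : (Subgroup.centralizer (P : Set G)).relIndex (pairStab P e) = i)
    {F : Type v} [Group F] [Fintype F] (hF : Nat.card F = Nat.card P * i) {Q : Subgroup F}
    (hQ : IsCyclic Q) (hQcard : Nat.card Q = Nat.card P)
    (hQC : Subgroup.centralizer (Q : Set F) = Q) :
    ∃ (I : Cfsg.IrrCharacter F → Cfsg.IrrCharacter G) (ε : Cfsg.IrrCharacter F → ℤ),
      Cfsg.IsPerfectIsometry p M (Set.univ : Set (Cfsg.IrrCharacter F)) B I ε ∧
      ∀ η η' : Cfsg.IrrCharacter F, (∃ x ∈ Q, (η : F → ℂ) x ≠ (η : F → ℂ) 1) →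
        (∃ x ∈ Q, (η' : F → ℂ) x ≠ (η' : F → ℂ) 1) → ε η = ε η' := by
  obtain ⟨D, X, d, d₀, tB, sB, -⟩ := exists_table_shape hM hB hm hcyc hP1
  rw [hi] at sB
  have hPp : IsPGroup p P := hm.pair.pGroup
  have hQi : Q.index = i := Nat.eq_of_mul_eq_mul_left (Nat.card_pos (α := P))
    ((congrArg (· * Q.index) hQcard.symm).trans (Q.card_mul_index.trans hF))
  have hd : i ∣ p - 1 := by
    have : Fintype P := Fintype.ofFinite P
    exact hi ▸ relIndex_dvd_pred hM hB hm hcyc
  let ι : P ≃* Q := mulEquivOfCyclicCardEq hQcard.symm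
  have hQp : IsPGroup p Q := hPp.of_equiv ι
  have hQn : Q.Normal := normal_of_index_dvd_pred hQp (hQi.symm ▸ hd)
  have hd' : Q.index ∣ p - 1 := hQi.symm ▸ hd
  have hE : inertAut P e = (conjAut ι).range :=
    subgroup_eq_of_card_eq hPp (by rw [card_inertAut, hi, card_range_conjAut ι hQC, hQi])
      (by rw [card_inertAut, hi]; exact hd)
  have sF := model_shape ι hQp hQC hd'
  rw [hQi, ← hE] at sF
  have hi0 : i ≠ 0 := hQi ▸ Subgroup.index_ne_zero_of_finite
  obtain ⟨I, ε, hI, hε, hD, hεX⟩ := sB.exists_signed_bijection sF hi0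
  have tF := model_table ι hQp hQC hd' hM
  rw [hQcard] at tF
  refine ⟨I, ε, isPerfectIsometry_of_tables hM Nat.card_pos tB tF hI hε hD (fun o o' => ?_),
    fun η η' h h' => ?_⟩
  · have h := model_products ι hQp hQC hd' hM o o'
    rwa [hQcard] at h
  · have key : ∀ ζ : Cfsg.IrrCharacter F, (∃ x ∈ Q, (ζ : F → ℂ) x ≠ (ζ : F → ℂ) 1) →
        ε ζ = d₀ * 1 := fun ζ ⟨x, hx, hne⟩ =>
      hεX ζ ⟨Set.mem_univ _, fun hX => hne (hX x hx)⟩
    rw [key η h, key η' h']

/-- The isometry with the correspondent in a subgroup containing the normaliser. -/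
theorem exists_isometry_correspondent {B : Set (Cfsg.IrrCharacter G)} {P H : Subgroup G}
    (hM : Cfsg.IsPModular p M) (hPD : Cfsg.IsDefectGroup p M B P) (hP1 : P ≠ ⊥)
    (hcyc : IsCyclic P) (hNH : Subgroup.normalizer (P : Set G) ≤ H)
    {c : Set (Cfsg.IrrCharacter H)} (hcD : Cfsg.IsDefectGroup p M c (P.subgroupOf H))
    (hc : Cfsg.IsInducedBlock M H c B) :
    Nat.card c = Nat.card B ∧ Cfsg.blockRank p c = Cfsg.blockRank p B ∧
      ∃ (I : Cfsg.IrrCharacter H → Cfsg.IrrCharacter G) (ε : Cfsg.IrrCharacter H → ℤ),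
        Cfsg.IsPerfectIsometry p M c B I ε := by
  have : Fintype H := Fintype.ofFinite H
  have hPH : P ≤ H := Subgroup.le_normalizer.trans hNH
  let σ : P.subgroupOf H ≃* P := Subgroup.subgroupOfEquivOfLe hPH
  have hcyc' : IsCyclic (P.subgroupOf H) := isCyclic_of_injective σ.toMonoidHom σ.injective
  have hP1' : P.subgroupOf H ≠ ⊥ := fun h => hP1 (by
    rwa [Subgroup.subgroupOf_eq_bot, disjoint_iff, inf_eq_left.2 hPH] at h)
  have hab := comm_of_cyclic hcyc
  have habQ := comm_of_cyclic hcyc'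
  have hQp : IsPGroup p (P.subgroupOf H) := H40.isPGroup_of_isDefectGroup hcD
  -- a root of the correspondent, carried to `G`
  obtain ⟨c₀, hc₀⟩ := H41.exists_inducing_block_of_subConj hM hQp
    (fun y hy => Subgroup.mem_centralizer_iff.2 fun x hx => habQ x hx y hy) le_rfl
    (Subgroup.centralizer_le_normalizer _) hc.1 hcD (H40.SubConj.refl (P.subgroupOf H))
  have hmap : (Subgroup.centralizer (P.subgroupOf H : Set H)).map H.subtype =
      Subgroup.centralizer (P : Set G) := by
    ext x
    constructor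
    · rintro ⟨n, hn, rfl⟩
      exact (H40.mem_centralizer_subgroupOf_iff hPH).1 hn
    · intro hx
      exact ⟨⟨x, hNH (Subgroup.centralizer_le_normalizer _ hx)⟩,
        (H40.mem_centralizer_subgroupOf_iff hPH).2 hx, rfl⟩
  let f : Subgroup.centralizer (P.subgroupOf H : Set H) ≃* Subgroup.centralizer (P : Set G) :=
    ((Subgroup.centralizer (P.subgroupOf H : Set H)).equivMapOfInjective H.subtype
      H.subtype_injective).trans (MulEquiv.subgroupCongr hmap)
  have hf : ∀ x, ((f x : Subgroup.centralizer (P : Set G)) : G) = ((x : H) : G) := fun x => rfl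
  set b := irrCongr f.symm '' c₀ with hb
  have hbB : Cfsg.IsInducedBlock M (Subgroup.centralizer (P : Set G)) b B := by
    obtain ⟨ξ, hξ⟩ := H41.IsPBlock.nonempty hc₀.1
    obtain ⟨ζ, hζ⟩ := H41.IsPBlock.nonempty hc.1
    obtain ⟨χ, hχ⟩ := H41.IsPBlock.nonempty hc.2.1
    refine (H40.isInducedBlock_iff (H22.isPBlock_image f.symm hc₀.1) hc.2.1
      (Set.mem_image_of_mem _ hξ) hχ).2 fun z => ?_
    rw [← H40.omegaBar_restrictZ_restrictZ H (Subgroup.centralizer (P : Set G))
        (Subgroup.centralizer (P.subgroupOf H : Set H)) f hf (irrCongr f.symm ξ) z,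
      show irrCongr f (irrCongr f.symm ξ) = ξ from Subtype.ext (funext fun x => by
        simp only [H43.irrCongr_apply, MulEquiv.symm_apply_apply]),
      H40.omegaBar_restrictZ_of_isInducedBlock hc₀ hξ hζ,
      H40.omegaBar_restrictZ_of_isInducedBlock hc hζ hχ]
  -- the two maximal pairs and their stabilisers
  have hm := H40.exists_isMaxEl hM hc.2.1 hPD hab hbB
  have hm' := H40.exists_isMaxEl hM hc.1 hcD habQ hc₀
  have hel : emb H.subtype (el M (Subgroup.centralizer (P.subgroupOf H : Set H)) c₀) =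
      el M (Subgroup.centralizer (P : Set G)) b := by
    refine H40.ext_coeff fun x => ?_
    by_cases hx : x ∈ Subgroup.centralizer (P : Set G)
    · obtain ⟨y, hy⟩ := f.surjective ⟨x, hx⟩
      have hxy : x = H.subtype (y : H) := by
        rw [Subgroup.coe_subtype, ← hf y, hy]
      have hR : (el M (Subgroup.centralizer (P : Set G)) b).coeff x =
          H22.resT M (Cfsg.blockCoeff b ⟨x, hx⟩) := by
        rw [H22.coeff_el, Cfsg.subgroupBlockCoeff, dif_pos hx]
      rw [hR]
      conv_lhs => rw [hxy]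
      rw [H22.coeff_emb_apply H.subtype_injective, H22.coeff_el,
        Cfsg.subgroupBlockCoeff, dif_pos y.2, hb, H22.blockCoeff_image]
      congr 2
      refine f.injective ?_
      rw [MulEquiv.apply_symm_apply]
      exact Subtype.ext ((hf _).trans hxy.symm)
    · rw [H22.coeff_el, Cfsg.subgroupBlockCoeff, dif_neg hx, H22.resT_zero]
      by_cases hxN : x ∈ H
      · rw [show x = H.subtype ⟨x, hxN⟩ from rfl, H22.coeff_emb_apply H.subtype_injective,
          H22.coeff_el, Cfsg.subgroupBlockCoeff, dif_neg, H22.resT_zero]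
        exact fun h => hx ((H40.mem_centralizer_subgroupOf_iff hPH).1 h)
      · exact H22.coeff_emb_notMem _ (by rwa [H.range_subtype])
  have hnorm : ∀ n : H, n ∈ Subgroup.normalizer ((P.subgroupOf H) : Set H) ↔
      (n : G) ∈ Subgroup.normalizer (P : Set G) := fun n => by
    simp only [Subgroup.mem_normalizer_iff, Subgroup.mem_subgroupOf, Subgroup.coe_mul,
      Subgroup.coe_inv]
    refine ⟨fun h g => ⟨fun hg => (h ⟨g, hPH hg⟩).1 hg, fun hg => ?_⟩, fun h g => h g⟩
    have hgH : g ∈ H := by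
      have := mul_mem (mul_mem (inv_mem n.2) (hPH hg)) n.2
      simpa [mul_assoc] using this
    exact (h ⟨g, hgH⟩).2 hg
  have hT : (pairStab (P.subgroupOf H) (el M (Subgroup.centralizer (P.subgroupOf H : Set H)) c₀)).map
      H.subtype = pairStab P (el M (Subgroup.centralizer (P : Set G)) b) := by
    rw [← hel]
    ext g
    constructor
    · rintro ⟨n, hn, rfl⟩
      refine ⟨(hnorm n).1 hn.1, ?_⟩
      show cj (H.subtype n) (emb H.subtype _) = emb H.subtype _
      rw [H22.cj_emb H.subtype_injective,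
        show cj n (el M (Subgroup.centralizer (P.subgroupOf H : Set H)) c₀) =
          el M (Subgroup.centralizer (P.subgroupOf H : Set H)) c₀ from hn.2]
    · rintro ⟨hgN', hg⟩
      refine ⟨⟨g, hNH hgN'⟩, ⟨(hnorm _).2 hgN', ?_⟩, rfl⟩
      show cj (⟨g, hNH hgN'⟩ : H) (el M (Subgroup.centralizer (P.subgroupOf H : Set H)) c₀) =
        el M (Subgroup.centralizer (P.subgroupOf H : Set H)) c₀
      refine H22.emb_injective H.subtype_injective ?_
      rw [← H22.cj_emb H.subtype_injective]
      exact hg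
  set i := (Subgroup.centralizer (P : Set G)).relIndex
    (pairStab P (el M (Subgroup.centralizer (P : Set G)) b)) with hi
  have hi' : (Subgroup.centralizer (P.subgroupOf H : Set H)).relIndex (pairStab (P.subgroupOf H)
      (el M (Subgroup.centralizer (P.subgroupOf H : Set H)) c₀)) = i := by
    rw [hi, ← hT, ← hmap, Subgroup.relIndex_map_map_of_injective _ _ H.subtype_injective]
  obtain ⟨D, X, d, d₀, tB, sB, hlB⟩ := exists_table_shape hM hc.2.1 hm hcyc hP1
  obtain ⟨D', X', d', d₀', tc, sc, hlc⟩ := exists_table_shape hM hc.1 hm' hcyc' hP1'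
  rw [hi'] at sc hlc
  rw [← hi] at sB hlB
  -- move the correspondent to the nontrivial elements of `P`
  have : Fintype P := Fintype.ofFinite P
  have tc' := tc.reindex σ.symm
  have sc' := sc.congr σ.symm
  have hPp : IsPGroup p P := hm.pair.pGroup
  have hdvd : i ∣ p - 1 := hi ▸ relIndex_dvd_pred hM hc.2.1 hm hcyc
  have hE : inertAut P (el M (Subgroup.centralizer (P : Set G)) b) =
      (inertAut (P.subgroupOf H) (el M (Subgroup.centralizer (P.subgroupOf H : Set H)) c₀)).map
        (MulAut.congr σ.symm.symm).toMonoidHom :=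
    subgroup_eq_of_card_eq hPp (by
      rw [card_inertAut, Subgroup.card_map_of_injective (MulAut.congr σ.symm.symm).injective,
        card_inertAut, hi', hi]) (by rw [card_inertAut, ← hi]; exact hdvd)
  rw [← hE] at sc'
  have hi0 : i ≠ 0 := hi ▸ relIndex_ne_zero
  obtain ⟨I, ε, hI, hε, hD, -⟩ := sB.exists_signed_bijection sc' hi0
  have hcard : Nat.card (P.subgroupOf H) = Nat.card P := Nat.card_congr σ.toEquiv
  rw [hcard] at tc'
  have hfree : ∀ α ∈ inertAut P (el M (Subgroup.centralizer (P : Set G)) b), ∀ v : P, v ≠ 1 →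
      α v = v → α = 1 := fun α hα v hv h => inertAut_fixed hM hc.2.1 hm hcyc hα hv h
  have := isMulComm hM hc.2.1 hm hcyc
  refine ⟨?_, hlc.trans hlB.symm, I, ε,
    isPerfectIsometry_of_tables hM Nat.card_pos tB tc' hI hε hD fun o o' => ?_⟩
  · exact Nat.card_congr hI.equiv
  · obtain ⟨n, hn⟩ := sc'.products hfree (by rw [card_inertAut]) o o'
    rw [hn, mul_div_cancel_left₀ _ (Nat.cast_ne_zero.2 Nat.card_pos.ne')]
    exact natCast_mem (localRing M) n

end Cfsg.Agent.H57.Cyclic
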