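import Cfsg.Agent.H27.Dual
import Cfsg.Agent.H27.Induction
import Cfsg.Agent.H40.PGroupUnitFn
import Cfsg.Agent.H56.SubsectionMajor
import Cfsg.Agent.H57.FrobLinear
import Mathlib.Algebra.CharP.Lemmas
import Mathlib.Algebra.CharP.Quotient
import Mathlib.NumberTheory.Multiplicity

/-!
# Functions with local coefficients on the nontrivial elements of a cyclic group of prime power order

The functions on the elements other than the identity whose coefficients at the linear characters are
local form a ring. It contains the inverses of its unit-valued members, and this corrects the phase of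
a function whose square lies in it by a sign.
-/

set_option autoImplicit false
set_option linter.unusedSectionVars false

open scoped ComplexConjugate Classical

namespace Cfsg.Agent.H57.Cyclic

open Cfsg.Agent.H41 (ResField res localRing)

universe w

variable {P : Type w} [Group P] [Fintype P] [IsMulCommutative P]

/-- The coefficient at `l` of a function on the elements other than the identity. -/
noncomputable def coef (f : {x : P // x ≠ 1} → ℂ) (l : P →* ℂˣ) : ℂ :=
  (Nat.card P : ℂ)⁻¹ * ∑ y : {x : P // x ≠ 1}, (conj ((l (y : P) : ℂˣ) : ℂ) - 1) * f y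

theorem card_ne_zero' : (Nat.card P : ℂ) ≠ 0 := Nat.cast_ne_zero.2 Nat.card_pos.ne'

/-- A sum over the elements other than the identity. -/
theorem sum_ne_one (g : P → ℂ) :
    ∑ y : {x : P // x ≠ 1}, g (y : P) = ∑ y : P, g y - g 1 := by
  rw [← Finset.sum_subtype (Finset.univ.erase (1 : P)) (p := fun x : P => x ≠ 1) (fun x => by simp) g,
    Finset.sum_erase_eq_sub (Finset.mem_univ _)]

/-- A function is the combination of its coefficients. -/
theorem coef_recon (f : {x : P // x ≠ 1} → ℂ) (x : {x : P // x ≠ 1}) :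
    f x = ∑ l : P →* ℂˣ, coef f l * ((l (x : P) : ℂˣ) : ℂ) := by
  have h : ∀ y : {x : P // x ≠ 1},
      ∑ l : P →* ℂˣ, (conj ((l (y : P) : ℂˣ) : ℂ) - 1) * f y * ((l (x : P) : ℂˣ) : ℂ) =
        if y = x then (Nat.card P : ℂ) * f y else 0 := fun y => by
    have h1 : ∀ l : P →* ℂˣ, (conj ((l (y : P) : ℂˣ) : ℂ) - 1) * f y * ((l (x : P) : ℂˣ) : ℂ) =
        f y * ((l ((y : P)⁻¹ * (x : P)) : ℂˣ) : ℂ) - f y * ((l (x : P) : ℂˣ) : ℂ) := fun l => by
      rw [H27.conj_linear, map_mul, Units.val_mul]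
      ring
    rw [Finset.sum_congr rfl fun l _ => h1 l, Finset.sum_sub_distrib, ← Finset.mul_sum,
      ← Finset.mul_sum, H27.sum_linear_apply, H27.sum_linear_apply, if_neg x.2, mul_zero, sub_zero]
    by_cases hyx : y = x
    · rw [if_pos hyx, if_pos (by rw [hyx, inv_mul_cancel]), mul_comm]
    · rw [if_neg hyx, if_neg (fun h => hyx (Subtype.ext (inv_mul_eq_one.1 h))), mul_zero]
  simp only [coef, mul_assoc, Finset.sum_mul, ← Finset.mul_sum]
  rw [Finset.sum_comm, Finset.sum_congr rfl fun y _ => by simpa only [mul_assoc] using h y,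
    Finset.sum_ite_eq' Finset.univ x, if_pos (Finset.mem_univ _), inv_mul_cancel_left₀ card_ne_zero']

/-- The coefficients of a linear character. -/
theorem coef_linear (l' l : P →* ℂˣ) :
    coef (fun y : {x : P // x ≠ 1} => ((l' (y : P) : ℂˣ) : ℂ)) l =
      (if l = l' then 1 else 0) - if l' = 1 then 1 else 0 := by
  have hs : ∀ μ : P →* ℂˣ, ∑ y : P, ((μ y : ℂˣ) : ℂ) = if μ = 1 then (Nat.card P : ℂ) else 0 :=
    fun μ => by
      split_ifs with hμ
      · subst hμ
        simp [Nat.card_eq_fintype_card]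
      · exact H27.sum_apply_linear hμ
  rw [coef, sum_ne_one (fun y => (conj ((l y : ℂˣ) : ℂ) - 1) * ((l' y : ℂˣ) : ℂ))]
  simp only [sub_mul, one_mul, map_one, Units.val_one, sub_self, mul_one, sub_zero,
    Finset.sum_sub_distrib]
  rw [Finset.sum_congr rfl (g := fun y => (((l⁻¹ * l') y : ℂˣ) : ℂ)) fun y _ => by
      rw [H27.conj_linear, MonoidHom.mul_apply, MonoidHom.inv_apply, map_inv, Units.val_mul],
    hs, hs, mul_sub]
  congr 1
  · by_cases h : l = l'
    · rw [if_pos (inv_mul_eq_one.2 h), if_pos h, inv_mul_cancel₀ card_ne_zero']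
    · rw [if_neg (fun h' => h (inv_mul_eq_one.1 h')), if_neg h, mul_zero]
  · split_ifs <;> simp

theorem coef_add (f g : {x : P // x ≠ 1} → ℂ) (l : P →* ℂˣ) :
    coef (fun x => f x + g x) l = coef f l + coef g l := by
  simp only [coef, mul_add, Finset.sum_add_distrib]

theorem coef_smul (c : ℂ) (f : {x : P // x ≠ 1} → ℂ) (l : P →* ℂˣ) :
    coef (fun x => c * f x) l = c * coef f l := by
  simp only [coef, Finset.mul_sum]
  exact Finset.sum_congr rfl fun y _ => by ring

theorem coef_sum {ι : Type*} (S : Finset ι) (F : ι → {x : P // x ≠ 1} → ℂ) (l : P →* ℂˣ) :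
    coef (fun x => ∑ i ∈ S, F i x) l = ∑ i ∈ S, coef (F i) l := by
  simp only [coef, Finset.mul_sum]
  exact Finset.sum_comm

theorem coef_one_eq_zero (f : {x : P // x ≠ 1} → ℂ) : coef f 1 = 0 := by
  simp [coef]

theorem isIntegral_linear (l : P →* ℂˣ) (x : P) : IsIntegral ℤ ((l x : ℂˣ) : ℂ) := by
  refine IsIntegral.of_pow (n := Nat.card P) Nat.card_pos ?_
  rw [← Units.val_pow_eq_pow_val, ← map_pow, pow_card_eq_one', map_one, Units.val_one]
  exact isIntegral_one

variable {p : ℕ} [hp : Fact p.Prime] {M : Ideal Cfsg.AlgInt} [M.IsMaximal]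

/-- The coefficients are local. -/
def HasLocalCoef (M : Ideal Cfsg.AlgInt) [M.IsMaximal] (f : {x : P // x ≠ 1} → ℂ) : Prop :=
  ∀ l : P →* ℂˣ, coef f l ∈ localRing M

namespace HasLocalCoef

theorem congr {f g : {x : P // x ≠ 1} → ℂ} (hf : HasLocalCoef M f) (h : ∀ x, g x = f x) :
    HasLocalCoef M g := by
  rwa [show g = f from funext h]

theorem linear (l' : P →* ℂˣ) :
    HasLocalCoef M (fun y : {x : P // x ≠ 1} => ((l' (y : P) : ℂˣ) : ℂ)) := fun l => by
  rw [coef_linear]
  exact sub_mem (by split_ifs <;> [exact one_mem _; exact zero_mem _])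
    (by split_ifs <;> [exact one_mem _; exact zero_mem _])

theorem smul {c : ℂ} (hc : c ∈ localRing M) {f : {x : P // x ≠ 1} → ℂ} (hf : HasLocalCoef M f) :
    HasLocalCoef M (fun x => c * f x) := fun l => by
  rw [coef_smul]
  exact mul_mem hc (hf l)

theorem sum {ι : Type*} (S : Finset ι) (F : ι → {x : P // x ≠ 1} → ℂ)
    (h : ∀ i ∈ S, HasLocalCoef M (F i)) : HasLocalCoef M (fun x => ∑ i ∈ S, F i x) := fun l => by
  rw [coef_sum]
  exact sum_mem fun i hi => h i hi l

theorem one : HasLocalCoef M (fun _ : {x : P // x ≠ 1} => (1 : ℂ)) :=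
  (linear (M := M) (1 : P →* ℂˣ)).congr fun x => by simp

theorem mul {f g : {x : P // x ≠ 1} → ℂ} (hf : HasLocalCoef M f) (hg : HasLocalCoef M g) :
    HasLocalCoef M (fun x => f x * g x) := by
  intro k
  rw [show (fun x => f x * g x) = fun x : {x : P // x ≠ 1} =>
      ∑ l : P →* ℂˣ, ∑ m : P →* ℂˣ, (coef f l * coef g m) * (((l * m) (x : P) : ℂˣ) : ℂ) from
    funext fun x => by
      rw [coef_recon f x, coef_recon g x, Finset.sum_mul_sum]
      refine Finset.sum_congr rfl fun l _ => Finset.sum_congr rfl fun m _ => ?_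
      rw [MonoidHom.mul_apply, Units.val_mul]
      ring, coef_sum]
  refine sum_mem fun l _ => ?_
  rw [coef_sum]
  refine sum_mem fun m _ => ?_
  rw [coef_smul]
  exact mul_mem (mul_mem (hf l) (hg m)) (linear (M := M) (l * m) k)

theorem pow {f : {x : P // x ≠ 1} → ℂ} (hf : HasLocalCoef M f) (n : ℕ) :
    HasLocalCoef M (fun x => f x ^ n) := by
  induction n with
  | zero => exact one.congr fun x => pow_zero _
  | succ n ih => exact (ih.mul hf).congr fun x => pow_succ _ _

theorem near {c : ℂ} (hc : c ∈ localRing M) (w : {x : P // x ≠ 1} → localRing M) :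
    HasLocalCoef M (fun x => c + (Nat.card P : ℂ) * (w x : ℂ)) := fun l => by
  rw [coef_add, show (fun _ : {x : P // x ≠ 1} => c) = fun x => c * (fun _ => (1 : ℂ)) x by simp,
    coef_smul, coef]
  refine add_mem (mul_mem hc (one l)) ?_
  rw [coef, Finset.mul_sum]
  refine sum_mem fun y _ => ?_
  rw [show (Nat.card P : ℂ)⁻¹ *
      ((conj ((l (y : P) : ℂˣ) : ℂ) - 1) * ((Nat.card P : ℂ) * (w y : ℂ))) =
      (conj ((l (y : P) : ℂˣ) : ℂ) - 1) * (w y : ℂ) by field_simp [card_ne_zero' (P := P)]]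
  refine mul_mem (sub_mem ?_ (one_mem _)) (w y).2
  exact H41.isIntegral_mem_localRing ((isIntegral_linear l _).map (starRingEnd ℂ).toIntAlgHom)

end HasLocalCoef

variable (hM : Cfsg.IsPModular p M) {a : ℕ} (ha : Nat.card P = p ^ a)

include hM in
theorem res_eq_of_congr {A B w : localRing M} (h : (A : ℂ) = (B : ℂ) + (p : ℂ) * (w : ℂ)) :
    res M A = res M B := by
  have h' : A = B + (p : localRing M) * w := Subtype.ext (by push_cast; exact h)
  rw [h', map_add, map_mul, map_natCast, H41.IsPModular.natCast_resField hM, zero_mul, add_zero]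

include hM ha in
/-- The power by the order of `P` is constant modulo `p`. -/
theorem exists_pow_congr {f : {x : P // x ≠ 1} → ℂ} (hf : HasLocalCoef M f) :
    ∃ c : localRing M, ∀ x, ∃ w : localRing M,
      f x ^ Nat.card P = (c : ℂ) + (p : ℂ) * (w : ℂ) := by
  let I : Ideal (localRing M) := Ideal.span {(p : localRing M)}
  have hI : I ≠ ⊤ := fun h => by
    rw [Ideal.span_singleton_eq_top] at h
    have h' := h.map (res M)
    rw [map_natCast, H41.IsPModular.natCast_resField hM] at h'
    exact not_isUnit_zero h'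
  have : Nontrivial (localRing M ⧸ I) := Ideal.Quotient.nontrivial_iff.2 hI
  have hp0 : ((p : ℕ) : localRing M ⧸ I) = 0 := by
    rw [← map_natCast (Ideal.Quotient.mk I), Ideal.Quotient.eq_zero_iff_mem]
    exact Ideal.mem_span_singleton_self _
  have : CharP (localRing M ⧸ I) p := (CharP.charP_iff_prime_eq_zero hp.out).2 hp0
  let A : (P →* ℂˣ) → localRing M := fun l => ⟨coef f l, hf l⟩
  refine ⟨∑ l, A l ^ Nat.card P, fun x => ?_⟩
  let L : (P →* ℂˣ) → localRing M := fun l =>
    ⟨_, H41.isIntegral_mem_localRing (isIntegral_linear l (x : P))⟩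
  have hL : ∀ l, L l ^ Nat.card P = 1 := fun l => Subtype.ext (by
    push_cast
    rw [← Units.val_pow_eq_pow_val, ← map_pow, pow_card_eq_one', map_one, Units.val_one])
  have h : Ideal.Quotient.mk I ((∑ l, A l * L l) ^ Nat.card P) =
      Ideal.Quotient.mk I (∑ l, A l ^ Nat.card P) := by
    rw [map_pow, map_sum, ha, sum_pow_char_pow, map_sum, ← ha]
    refine Finset.sum_congr rfl fun l _ => ?_
    rw [← map_pow, mul_pow, hL, mul_one]
  rw [Ideal.Quotient.eq, Ideal.mem_span_singleton'] at h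
  obtain ⟨w, hw⟩ := h
  refine ⟨w, ?_⟩
  have hc := congrArg (fun z : localRing M => (z : ℂ)) hw
  push_cast [A, L] at hc
  rw [← coef_recon f x] at hc
  push_cast [A]
  linear_combination -hc

include ha in
/-- A congruence modulo `p` lifts to one modulo the order of `P`. -/
theorem exists_pow_lift {z : ℂ} {c w : localRing M} (h : z = (c : ℂ) + (p : ℂ) * (w : ℂ)) :
    ∃ w' : localRing M, z ^ Nat.card P = (c : ℂ) ^ Nat.card P + (Nat.card P : ℂ) * (w' : ℂ) := by
  obtain ⟨k, hk⟩ := dvd_sub_pow_of_dvd_sub (R := localRing M) (p := p)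
    (a := c + (p : localRing M) * w) (b := c) ⟨w, by ring⟩ a
  refine ⟨(p : localRing M) * k, ?_⟩
  have hc := congrArg (fun z : localRing M => (z : ℂ)) hk
  push_cast at hc
  rw [h, ha]
  push_cast
  rw [pow_succ] at hc
  linear_combination hc

include hM ha in
/-- The double power of a function congruent to a unit has its inverse among them. -/
theorem inv_pow_near {f : {x : P // x ≠ 1} → ℂ} {c : localRing M} (hc : res M c ≠ 0)
    (h : ∀ x, ∃ w : localRing M, f x ^ Nat.card P = (c : ℂ) + (p : ℂ) * (w : ℂ)) :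
    HasLocalCoef M (fun x => (f x ^ (Nat.card P * Nat.card P))⁻¹) ∧ ∀ x, f x ≠ 0 := by
  choose w hw using h
  choose w' hw' using fun x => exists_pow_lift (M := M) ha (hw x)
  have hf : ∀ x, res M (c + (p : localRing M) * w x) = res M c := fun x => by
    rw [map_add, map_mul, map_natCast, H41.IsPModular.natCast_resField hM, zero_mul, add_zero]
  have hz : ∀ x, f x ^ (Nat.card P * Nat.card P) =
      (((c + (p : localRing M) * w x) ^ Nat.card P : localRing M) : ℂ) := fun x => by
    push_cast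
    rw [pow_mul, hw x]
  have hne : ∀ x, res M ((c + (p : localRing M) * w x) ^ Nat.card P) ≠ 0 := fun x => by
    rw [map_pow, hf]
    exact pow_ne_zero _ hc
  have hc' : res M (c ^ Nat.card P) ≠ 0 := by
    rw [map_pow]
    exact pow_ne_zero _ hc
  have hne' : ∀ x, f x ^ (Nat.card P * Nat.card P) ≠ 0 := fun x hx => hne x (by
    rw [hz] at hx
    rw [show ((c + (p : localRing M) * w x) ^ Nat.card P : localRing M) = 0 from Subtype.ext hx,
      map_zero])
  refine ⟨(HasLocalCoef.near (H41.inv_mem_localRing hc') fun x =>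
    -(w' x) * ⟨_, H41.inv_mem_localRing hc'⟩ * ⟨_, H41.inv_mem_localRing (hne x)⟩).congr fun x => ?_,
    fun x hx => hne' x (by rw [hx, zero_pow (by simp)])⟩
  have h0 : ((c : ℂ) ^ Nat.card P) ≠ 0 := fun h => hc' (by
    rw [show c ^ Nat.card P = 0 from Subtype.ext (by push_cast; exact h), map_zero])
  have h1 : f x ^ (Nat.card P * Nat.card P) =
      (c : ℂ) ^ Nat.card P + (Nat.card P : ℂ) * (w' x : ℂ) := by rw [pow_mul, hw']
  have h2 := hne' x
  push_cast
  rw [← show f x ^ (Nat.card P * Nat.card P) =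
      ((c : ℂ) + (p : ℂ) * (w x : ℂ)) ^ Nat.card P by rw [pow_mul, hw]]
  field_simp
  linear_combination -h1

include hM ha in
/-- The inverse of a unit-valued function with local coefficients. -/
theorem HasLocalCoef.inv {f : {x : P // x ≠ 1} → ℂ} {c : localRing M} (hf : HasLocalCoef M f)
    (hc : res M c ≠ 0)
    (h : ∀ x, ∃ w : localRing M, f x ^ Nat.card P = (c : ℂ) + (p : ℂ) * (w : ℂ)) :
    HasLocalCoef M (fun x => (f x)⁻¹) := by
  obtain ⟨h1, h2⟩ := inv_pow_near hM ha hc h
  refine ((hf.pow (Nat.card P * Nat.card P - 1)).mul h1).congr fun x => ?_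
  have hn : f x ^ (Nat.card P * Nat.card P) = f x ^ (Nat.card P * Nat.card P - 1) * f x := by
    rw [← pow_succ, Nat.sub_add_cancel (Nat.mul_pos Nat.card_pos Nat.card_pos)]
  rw [hn]
  field_simp [h2 x]

include hM ha in
/-- A sign, depending on the residue only, which carries the combinations with `d'` over. -/
theorem exists_sign (hp2 : Odd p) (d d' : {x : P // x ≠ 1} → ℂ) (N : {x : P // x ≠ 1} → ℕ)
    (hN : ∀ x, (N x : ResField M) ≠ 0)
    (hd : ∀ x, ∃ w : localRing M, d x ^ Nat.card P = (N x : ℂ) + (p : ℂ) * (w : ℂ))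
    (hd' : ∀ x, ∃ N' : ℕ, (N' : ResField M) = N x ∧
      ∃ w : localRing M, d' x ^ Nat.card P = (N' : ℂ) + (p : ℂ) * (w : ℂ))
    (h2 : HasLocalCoef M fun x => d x * d x) (hn : HasLocalCoef M fun x => d' x * d x) :
    ∃ γ : {x : P // x ≠ 1} → ℤ, (∀ x, γ x = 1 ∨ γ x = -1) ∧
      (∀ x y, (N x : ResField M) = N y → γ x = γ y) ∧
      ∀ f : {x : P // x ≠ 1} → ℂ, HasLocalCoef M (fun x => d' x * f x) →
        HasLocalCoef M (fun x => (γ x : ℂ) * f x) := by
  rcases isEmpty_or_nonempty {x : P // x ≠ 1} with hV | ⟨⟨x₀⟩⟩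
  · exact ⟨fun _ => 1, fun _ => Or.inl rfl, fun _ _ _ => rfl, fun f _ l => by simp [coef]⟩
  obtain ⟨c₂, hc₂⟩ := exists_pow_congr hM ha h2
  have hsq : ∀ x, (N x : ResField M) * (N x : ResField M) = res M c₂ := fun x => by
    obtain ⟨w, hw⟩ := hd x
    obtain ⟨w', hw'⟩ := hc₂ x
    rw [mul_pow, hw] at hw'
    have := res_eq_of_congr hM (A := (N x : localRing M) * (N x : localRing M)) (B := c₂)
      (w := w' - (N x : localRing M) * (w + w) - (p : localRing M) * w * w) (by
        push_cast
        linear_combination hw')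
    rwa [map_mul, map_natCast] at this
  have hpm : ∀ x, (N x : ResField M) = N x₀ ∨ (N x : ResField M) = -N x₀ := fun x =>
    mul_self_eq_mul_self_iff.1 ((hsq x).trans (hsq x₀).symm)
  let γ : {x : P // x ≠ 1} → ℤ := fun x => if (N x : ResField M) = N x₀ then 1 else -1
  have hγ : ∀ x, γ x = 1 ∨ γ x = -1 := fun x => ite_eq_or_eq _ _ _
  refine ⟨γ, hγ, fun x y h => by simp only [γ, h], fun f hf => ?_⟩
  have hγq : ∀ x, (γ x : ℂ) ^ Nat.card P = γ x := fun x => by
    rcases hγ x with h | h <;> rw [h]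
    · simp
    · rw [Int.cast_neg, Int.cast_one, ha, (hp2.pow).neg_one_pow]
  have hres : ∀ x, ((γ x * N x : ℤ) : ResField M) = ((N x₀ : ℤ) : ResField M) := fun x => by
    push_cast
    simp only [γ]
    split_ifs with h
    · rw [Int.cast_one, one_mul, h]
    · rw [(hpm x).resolve_left h]
      simp
  let h : {x : P // x ≠ 1} → ℂ := fun x => (γ x : ℂ) * d x
  have hh : HasLocalCoef M (fun x => h x * h x) := h2.congr fun x => by
    simp only [h]
    rcases hγ x with e | e <;> rw [e] <;> push_cast <;> ring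
  have hhq : ∀ x, ∃ w : localRing M,
      h x ^ Nat.card P = ((N x₀ : localRing M) : ℂ) + (p : ℂ) * (w : ℂ) := fun x => by
    obtain ⟨w, hw⟩ := hd x
    obtain ⟨z, hz⟩ : (p : ℤ) ∣ γ x * N x - N x₀ := by
      refine (H41.IsPModular.intCast_eq_zero_iff hM _).1 ?_
      rw [Int.cast_sub, hres, sub_self]
    refine ⟨(z : localRing M) + (γ x : localRing M) * w, ?_⟩
    have hz' := congrArg (Int.cast : ℤ → ℂ) hz
    push_cast at hz'
    simp only [h, mul_pow, hγq, hw]
    push_cast
    linear_combination hz'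
  have hR : res M (N x₀ : localRing M) ≠ 0 := by rw [map_natCast]; exact hN x₀
  obtain ⟨hinv, hne⟩ := inv_pow_near hM ha hR hhq
  have hh1 : HasLocalCoef M h := by
    obtain ⟨j, hj⟩ : Odd (Nat.card P * Nat.card P) := by
      rw [ha]
      exact hp2.pow.mul hp2.pow
    refine ((hh.pow (j + 1)).mul hinv).congr fun x => ?_
    rw [hj, ← pow_two, ← pow_mul, show 2 * (j + 1) = (2 * j + 1) + 1 by ring, pow_succ _ (2 * j + 1)]
    field_simp [hne x]
  have hn' : HasLocalCoef M (fun x => (d' x * d x)⁻¹) := by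
    refine hn.inv hM ha (c := (N x₀ : localRing M) * (N x₀ : localRing M))
      (by rw [map_mul]; exact mul_ne_zero hR hR) fun x => ?_
    obtain ⟨c, hc⟩ := exists_pow_congr hM ha hn
    obtain ⟨w, hw⟩ := hd x
    obtain ⟨N', hN', w', hw'⟩ := hd' x
    obtain ⟨z, hz⟩ : (p : ℤ) ∣ (N' : ℤ) * N x - (N x₀ : ℤ) * N x₀ := by
      refine (H41.IsPModular.intCast_eq_zero_iff hM _).1 ?_
      push_cast
      rw [hN', hsq x, hsq x₀, sub_self]
    refine ⟨(z : localRing M) + (N' : localRing M) * w + w' * (N x : localRing M) +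
      (p : localRing M) * (w' * w), ?_⟩
    have hz' := congrArg (Int.cast : ℤ → ℂ) hz
    push_cast at hz'
    rw [mul_pow, hw, hw']
    push_cast
    linear_combination hz'
  refine ((hf.mul hh1).mul hn').congr fun x => ?_
  have hd0 : d' x ≠ 0 := fun h0 => by
    obtain ⟨N', hN', w', hw'⟩ := hd' x
    rw [h0, zero_pow Nat.card_pos.ne'] at hw'
    have := res_eq_of_congr hM (A := 0) (B := (N' : localRing M)) (w := w') (by push_cast; exact hw')
    rw [map_zero, map_natCast] at this
    exact hN x (hN' ▸ this.symm)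
  have hdx : d x ≠ 0 := fun h0 => hne x (by simp [h, h0])
  simp only [h]
  field_simp

include hM ha in
/-- A nonnegative function with integral coefficients, unit values and sum at most the order of `P`
is constant one. -/
theorem eq_one_of_nonneg (f : {x : P // x ≠ 1} → ℂ) (hcoef : ∀ l, ∃ z : ℤ, coef f l = (z : ℂ))
    (hpos : ∀ x, ∃ r : ℝ, 0 ≤ r ∧ f x = (r : ℂ))
    (hsum : ∃ r : ℝ, 0 ≤ r ∧ (Nat.card P : ℂ) - ∑ x, f x = (r : ℂ))
    (hloc : ∀ x, f x ∈ localRing M ∧ ∀ hx : f x ∈ localRing M, res M ⟨f x, hx⟩ ≠ 0)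
    (x : {x : P // x ≠ 1}) : f x = 1 := by
  choose z hz using hcoef
  have ha0 : a ≠ 0 := by
    rintro rfl
    exact x.2 ((Nat.card_eq_one_iff_unique.1 (by rw [ha, pow_zero])).1.elim _ _)
  let ν : P → ℂ := fun y => ∑ l : P →* ℂˣ, ((1 + z l : ℤ) : ℂ) * ((l y : ℂˣ) : ℂ)
  have hν : ∀ y : {x : P // x ≠ 1}, ν (y : P) = f y := fun y => by
    simp only [ν, Int.cast_add, Int.cast_one, add_mul, one_mul, Finset.sum_add_distrib, ← hz,
      ← coef_recon, H27.sum_linear_apply, if_neg y.2, zero_add]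
  have hν1 : ν 1 = (Nat.card P : ℂ) - ∑ x, f x := by
    simp only [ν, Int.cast_add, Int.cast_one, add_mul, one_mul, Finset.sum_add_distrib,
      H27.sum_linear_apply, if_true, map_one, Units.val_one, mul_one, ← hz]
    rw [sub_eq_add_neg]
    congr 1
    have : ∀ y : {x : P // x ≠ 1},
        ∑ l : P →* ℂˣ, (conj ((l (y : P) : ℂˣ) : ℂ) - 1) * f y = -((Nat.card P : ℂ) * f y) :=
      fun y => by
        rw [← Finset.sum_mul, Finset.sum_sub_distrib, ← map_sum, H27.sum_linear_apply,
          if_neg y.2, map_zero, Finset.sum_const, Finset.card_univ, ← Nat.card_eq_fintype_card,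
          H27.card_linear, nsmul_eq_mul, mul_one]
        ring
    simp only [coef, ← Finset.mul_sum]
    rw [Finset.sum_comm, Finset.sum_congr rfl fun y _ => this y, Finset.sum_neg_distrib,
      ← Finset.mul_sum, mul_neg, inv_mul_cancel_left₀ card_ne_zero']
  have hgen : Cfsg.IsGeneralizedCharacter P ν := by
    show ν ∈ H27.genChars P
    rw [show ν = ∑ l : P →* ℂˣ, (1 + z l) • (fun y : P => ((l y : ℂˣ) : ℂ)) from funext fun y => by
      simp only [ν, Finset.sum_apply, Pi.mul_apply, Pi.intCast_apply, zsmul_eq_mul]]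
    exact sum_mem fun l _ => zsmul_mem (H27.mem_genChars_of_isCharacter
      (H26.isCharacter_of_irr (H26.isIrrCharacter_hom l))) _
  have hnn : ∀ u, ∃ r : ℝ, 0 ≤ r ∧ ν u = (r : ℂ) := fun u => by
    by_cases hu : u = 1
    · subst hu
      rw [hν1]
      exact hsum
    · rw [show u = ((⟨u, hu⟩ : {x : P // x ≠ 1}) : P) from rfl, hν]
      exact hpos _
  set n : ℤ := ∑ l : P →* ℂˣ, (1 + z l) with hn
  have hn1 : ν 1 = (n : ℂ) := by
    simp only [ν, hn, Int.cast_sum, map_one, Units.val_one, mul_one]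
  have hdvd : ¬ (p : ℤ) ∣ n := fun hd => by
    obtain ⟨hx, hres⟩ := hloc x
    refine hres hx ?_
    let L : (P →* ℂˣ) → localRing M := fun l =>
      ⟨_, H41.isIntegral_mem_localRing (isIntegral_linear l (x : P))⟩
    have hL : ∀ l, res M (L l) = 1 := fun l => H56.Subsec.res_root_eq_one hM (e := a) (L l) (by
      show ((l (x : P) : ℂˣ) : ℂ) ^ p ^ a = 1
      rw [← ha, ← Units.val_pow_eq_pow_val, ← map_pow, pow_card_eq_one', map_one, Units.val_one])
    rw [show (⟨f x, hx⟩ : localRing M) = ∑ l : P →* ℂˣ, ((1 + z l : ℤ) : localRing M) * L l from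
      Subtype.ext (by push_cast [L]; rw [← hν x]; simp [ν]), map_sum]
    simp only [map_mul, map_intCast, hL, mul_one]
    rw [← Int.cast_sum, ← hn]
    exact (H41.IsPModular.intCast_eq_zero_iff hM n).2 hd
  have := H40.PGroupUnitFn.eq_one hM ⟨a, ha⟩ hgen hnn hdvd hn1 (by
    rw [← Finset.add_sum_erase _ _ (Finset.mem_univ (1 : P)), hν1,
      Finset.sum_subtype _ (p := fun y : P => y ≠ 1) (F := inferInstance) (fun y => by simp) ν,
      Finset.sum_congr rfl fun y _ => hν y, sub_add_cancel]) (x : P)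
  rwa [hν] at this

end Cfsg.Agent.H57.Cyclic
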