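import Cfsg.Agent.H57.Cyclic.Kernel

/-!
# The shape of the columns of a block with cyclic defect group

`B` splits into a set of constant signed columns and a set mapped bijectively, up to one sign, onto the
orbit sums of the nontrivial linear characters of the defect group.  Two sets of characters of the same
shape have signed bijections matching the columns.
-/

set_option autoImplicit false

namespace Cfsg.Agent.H57.Cyclic

universe u v w

/-- The orbit sums of the nontrivial linear characters, on the elements other than the identity. -/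
def orbitSums {P : Type w} [Group P] (E : Subgroup (MulAut P)) : Set ({x : P // x ≠ 1} → ℂ) :=
  {f | ∃ l : P →* ℂˣ, l ≠ 1 ∧ f = fun x : {x : P // x ≠ 1} => ∑ᶠ a ∈ (E : Set (MulAut P)), (l (a (x : P)) : ℂ)}

/-- A set `B` with columns `D` has `e` signed constant rows in `X`, and the rest of it runs once through
the orbit sums of `E`, up to the sign `d₀`. -/
structure Shape {G : Type u} [Group G] {P : Type w} [Group P] (E : Subgroup (MulAut P)) (e : ℕ)
    (B : Set (Cfsg.IrrCharacter G)) (D : Cfsg.IrrCharacter G → {x : P // x ≠ 1} → ℂ)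
    (X : Set (Cfsg.IrrCharacter G)) (d : Cfsg.IrrCharacter G → ℤ) (d₀ : ℤ) : Prop where
  subset : X ⊆ B
  card : X.ncard = e
  sign : ∀ χ ∈ X, d χ = 1 ∨ d χ = -1
  sign₀ : d₀ = 1 ∨ d₀ = -1
  const : ∀ χ ∈ X, D χ = fun _ => (d χ : ℂ)
  rest : Set.BijOn (fun χ x => (d₀ : ℂ) * D χ x) (B \ X) (orbitSums E)

variable {G : Type u} [Group G] [Finite G] {H : Type v} [Group H] [Finite H] {P : Type w} [Group P]
  {E : Subgroup (MulAut P)} {e : ℕ}
  {B XB : Set (Cfsg.IrrCharacter G)} {c Xc : Set (Cfsg.IrrCharacter H)}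
  {DG : Cfsg.IrrCharacter G → {x : P // x ≠ 1} → ℂ} {DH : Cfsg.IrrCharacter H → {x : P // x ≠ 1} → ℂ}
  {dB : Cfsg.IrrCharacter G → ℤ} {dB₀ : ℤ} {dc : Cfsg.IrrCharacter H → ℤ} {dc₀ : ℤ}

/-- Two sets of the same shape have a signed bijection matching the columns. -/
theorem Shape.exists_signed_bijection (hB : Shape E e B DG XB dB dB₀)
    (hc : Shape E e c DH Xc dc dc₀) (he : e ≠ 0) :
    ∃ (I : Cfsg.IrrCharacter H → Cfsg.IrrCharacter G) (ε : Cfsg.IrrCharacter H → ℤ),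
      Set.BijOn I c B ∧ (∀ η ∈ c, ε η = 1 ∨ ε η = -1) ∧
        (∀ η ∈ c, ∀ o, DG (I η) o = (ε η : ℂ) * DH η o) ∧
        ∀ η ∈ c \ Xc, ε η = dB₀ * dc₀ := by
  classical
  have hX : Nat.card Xc = Nat.card XB := by
    rw [Nat.card_coe_set_eq, Nat.card_coe_set_eq, hc.card, hB.card]
  obtain ⟨f⟩ := Finite.card_eq.1 hX
  obtain ⟨χ₀, -⟩ : XB.Nonempty := Set.nonempty_of_ncard_ne_zero (hB.card.trans_ne he)
  have : Nonempty (Cfsg.IrrCharacter G) := ⟨χ₀⟩
  set gc : Cfsg.IrrCharacter H → {x : P // x ≠ 1} → ℂ := fun η x => (dc₀ : ℂ) * DH η x with hgc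
  set gB : Cfsg.IrrCharacter G → {x : P // x ≠ 1} → ℂ := fun χ x => (dB₀ : ℂ) * DG χ x with hgB
  let J : Cfsg.IrrCharacter H → Cfsg.IrrCharacter G := fun η => Function.invFunOn gB (B \ XB) (gc η)
  have hJ : Set.BijOn J (c \ Xc) (B \ XB) :=
    (hB.rest.symm (Set.BijOn.invOn_invFunOn hB.rest).symm).comp hc.rest
  have hJg : ∀ η ∈ c \ Xc, gB (J η) = gc η := fun η hη =>
    Function.invFunOn_eq (hB.rest.surjOn (hc.rest.mapsTo hη))
  let I : Cfsg.IrrCharacter H → Cfsg.IrrCharacter G := fun η =>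
    if h : η ∈ Xc then (f ⟨η, h⟩ : Cfsg.IrrCharacter G) else J η
  have hIX : ∀ η (h : η ∈ Xc), I η = (f ⟨η, h⟩ : Cfsg.IrrCharacter G) := fun η h => dif_pos h
  have hIY : ∀ η, η ∉ Xc → I η = J η := fun η h => dif_neg h
  let ε : Cfsg.IrrCharacter H → ℤ := fun η =>
    if η ∈ Xc then dB (I η) * dc η else dB₀ * dc₀
  have hmul : ∀ {a b : ℤ}, (a = 1 ∨ a = -1) → (b = 1 ∨ b = -1) → a * b = 1 ∨ a * b = -1 :=
    fun ha hb => by rcases ha with rfl | rfl <;> rcases hb with rfl | rfl <;> simp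
  have hsq : ∀ {a : ℤ}, (a = 1 ∨ a = -1) → (a : ℂ) * (a : ℂ) = 1 :=
    fun ha => by rcases ha with rfl | rfl <;> simp
  refine ⟨I, ε, ⟨fun η hη => ?_, fun η hη η' hη' h => ?_, fun χ hχ => ?_⟩, fun η hη => ?_,
    fun η hη o => ?_, fun η hη => if_neg hη.2⟩
  · by_cases h : η ∈ Xc
    · rw [hIX η h]
      exact hB.subset (f ⟨η, h⟩).2
    · rw [hIY η h]
      exact (hJ.mapsTo ⟨hη, h⟩).1
  · by_cases h1 : η ∈ Xc <;> by_cases h2 : η' ∈ Xc
    · rw [hIX η h1, hIX η' h2] at h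
      exact congrArg Subtype.val (f.injective (Subtype.ext h))
    · rw [hIX η h1, hIY η' h2] at h
      exact absurd (h ▸ (f ⟨η, h1⟩).2) (hJ.mapsTo ⟨hη', h2⟩).2
    · rw [hIX η' h2, hIY η h1] at h
      exact absurd (h ▸ (f ⟨η', h2⟩).2) (hJ.mapsTo ⟨hη, h1⟩).2
    · rw [hIY η h1, hIY η' h2] at h
      exact hJ.injOn ⟨hη, h1⟩ ⟨hη', h2⟩ h
  · by_cases h : χ ∈ XB
    · refine ⟨f.symm ⟨χ, h⟩, hc.subset (f.symm ⟨χ, h⟩).2, ?_⟩
      rw [hIX _ (f.symm ⟨χ, h⟩).2, Subtype.coe_eta, Equiv.apply_symm_apply]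
    · obtain ⟨η, hη, hη'⟩ := hJ.surjOn ⟨hχ, h⟩
      exact ⟨η, hη.1, (hIY η hη.2).trans hη'⟩
  · by_cases h : η ∈ Xc
    · simp only [ε, if_pos h]
      exact hmul (hB.sign _ (hIX η h ▸ (f ⟨η, h⟩).2)) (hc.sign η h)
    · simp only [ε, if_neg h]
      exact hmul hB.sign₀ hc.sign₀
  · by_cases h : η ∈ Xc
    · have hm : I η ∈ XB := hIX η h ▸ (f ⟨η, h⟩).2
      simp only [ε, if_pos h]
      rw [hB.const _ hm, hc.const η h]
      push_cast
      linear_combination (-(dB (I η) : ℂ)) * hsq (hc.sign η h)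
    · have e := congrFun (hJg η ⟨hη, h⟩) o
      simp only [hgc, hgB] at e
      simp only [ε, if_neg h, hIY η h]
      push_cast
      linear_combination (dB₀ : ℂ) * e - DG (J η) o * hsq hB.sign₀

end Cfsg.Agent.H57.Cyclic
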