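import Cfsg.Agent.H57.Cyclic.Normal
import Cfsg.Agent.H57.Cyclic.Shape

/-!
# Orbit sums of linear characters under a group of automorphisms acting freely

For a group of automorphisms of a finite commutative group with no fixed points other than the identity
the orbit sums of the nontrivial linear characters expand the invariant functions on the other elements.
-/

set_option autoImplicit false
set_option linter.unusedSectionVars false

open scoped ComplexConjugate Classical

namespace Cfsg.Agent.H57.Cyclic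

open Cfsg.Agent.H42 (blockFinset mem_blockFinset)

universe u w

variable {P : Type w} [Group P] [Fintype P] {E : Subgroup (MulAut P)}

/-- The sum over an orbit of a linear character. -/
noncomputable def orbitFun (E : Subgroup (MulAut P)) (l : P →* ℂˣ) (x : {x : P // x ≠ 1}) : ℂ :=
  ∑ α : E, ((l ((α : MulAut P) (x : P)) : ℂˣ) : ℂ)

theorem orbitFun_eq_finsum (l : P →* ℂˣ) (x : {x : P // x ≠ 1}) :
    ∑ᶠ a ∈ (E : Set (MulAut P)), ((l (a (x : P)) : ℂˣ) : ℂ) = orbitFun E l x := by
  rw [orbitFun, ← finsum_set_coe_eq_finsum_mem, finsum_eq_sum_of_fintype]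
  exact Finset.sum_congr (by ext; simp) fun _ _ => rfl

theorem mem_orbitSums {f : {x : P // x ≠ 1} → ℂ} :
    f ∈ orbitSums E ↔ ∃ l : P →* ℂˣ, l ≠ 1 ∧ f = orbitFun E l := by
  constructor <;> rintro ⟨l, hl, rfl⟩ <;> refine ⟨l, hl, funext fun x => ?_⟩
  · exact orbitFun_eq_finsum l x
  · exact (orbitFun_eq_finsum l x).symm

theorem orbitSums_finite (E : Subgroup (MulAut P)) : (orbitSums E).Finite :=
  (Set.finite_range (orbitFun E)).subset fun f hf => by
    obtain ⟨l, -, rfl⟩ := mem_orbitSums.1 hf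
    exact Set.mem_range_self l

noncomputable instance orbitSumsFintype (E : Subgroup (MulAut P)) : Fintype (orbitSums E) :=
  (orbitSums_finite E).fintype

/-- A character giving an orbit sum. -/
noncomputable def rep (i : orbitSums E) : P →* ℂˣ := (mem_orbitSums.1 i.2).choose

theorem rep_spec (i : orbitSums E) : rep i ≠ 1 ∧ i.1 = orbitFun E (rep i) :=
  (mem_orbitSums.1 i.2).choose_spec

theorem orbitFun_comp (l : P →* ℂˣ) (β : E) :
    orbitFun E (l.comp (β : MulAut P).toMonoidHom) = orbitFun E l := funext fun _ =>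
  Fintype.sum_equiv (Equiv.mulLeft β) _ _ fun _ => rfl

theorem comp_ne_one {l : P →* ℂˣ} (hl : l ≠ 1) (α : MulAut P) : l.comp α.toMonoidHom ≠ 1 :=
  fun h => hl (MonoidHom.ext fun v => by
    simpa using DFunLike.congr_fun h (α.symm v))

theorem coef_comp {f : {x : P // x ≠ 1} → ℂ} (α : MulAut P)
    (hf : ∀ x : {x : P // x ≠ 1}, ∀ h : α (x : P) ≠ 1, f ⟨α (x : P), h⟩ = f x) (l : P →* ℂˣ) :
    coef f (l.comp α.toMonoidHom) = coef f l := by
  rw [coef, coef]
  congr 1
  refine Fintype.sum_equiv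
    (α.toEquiv.subtypeEquiv fun x => (not_congr (MulEquiv.map_eq_one_iff α)).symm) _ _ fun v => ?_
  show _ = (conj ((l (α (v : P)) : ℂˣ) : ℂ) - 1) * f ⟨α (v : P), _⟩
  rw [hf]
  rfl

/-- Orbit sums are invariant. -/
theorem orbitSums_invariant (i : orbitSums E) {α : MulAut P} (hα : α ∈ E)
    (x : {x : P // x ≠ 1}) (h : α (x : P) ≠ 1) : i.1 ⟨α (x : P), h⟩ = i.1 x := by
  rw [(rep_spec i).2]
  exact Fintype.sum_equiv (Equiv.mulRight (⟨α, hα⟩ : E)) _ _ fun β => rfl

/-- Pairing an invariant function with an orbit sum gives its coefficient. -/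
theorem sum_orbit_conj_mul {f : {x : P // x ≠ 1} → ℂ}
    (hf : ∀ α ∈ E, ∀ x : {x : P // x ≠ 1}, ∀ h : α (x : P) ≠ 1, f ⟨α (x : P), h⟩ = f x)
    (i : orbitSums E) :
    ∑ v : {x : P // x ≠ 1}, (conj (i.1 v) - (Nat.card E : ℂ)) * f v =
      (Nat.card P : ℂ) * (Nat.card E : ℂ) * coef f (rep i) := by
  have h1 : ∀ α : E, ∑ v : {x : P // x ≠ 1},
      (conj ((rep i ((α : MulAut P) (v : P)) : ℂˣ) : ℂ) - 1) * f v =
        (Nat.card P : ℂ) * coef f (rep i) := fun α => by
    rw [coef, ← mul_assoc,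
      mul_inv_cancel₀ (show (Nat.card P : ℂ) ≠ 0 from Nat.cast_ne_zero.2 Nat.card_pos.ne'), one_mul]
    refine Fintype.sum_equiv (M := ℂ)
      ((α : MulAut P).toEquiv.subtypeEquiv fun x =>
        (not_congr (MulEquiv.map_eq_one_iff (α : MulAut P))).symm) _ _ fun v => ?_
    show _ = (conj ((rep i ((α : MulAut P) (v : P)) : ℂˣ) : ℂ) - 1) * f ⟨(α : MulAut P) (v : P), _⟩
    rw [hf _ α.2]
  have h2 : ∀ v : {x : P // x ≠ 1}, (conj (i.1 v) - (Nat.card E : ℂ)) * f v =
      ∑ α : E, (conj ((rep i ((α : MulAut P) (v : P)) : ℂˣ) : ℂ) - 1) * f v := fun v => by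
    rw [← Finset.sum_mul, Finset.sum_sub_distrib, (rep_spec i).2, orbitFun, map_sum,
      Finset.sum_const, Finset.card_univ, ← Nat.card_eq_fintype_card, nsmul_one]
  rw [Finset.sum_congr rfl fun v _ => h2 v, Finset.sum_comm,
    Finset.sum_congr rfl fun α _ => h1 α, Finset.sum_const, Finset.card_univ,
    ← Nat.card_eq_fintype_card, nsmul_eq_mul]
  ring

variable [IsMulCommutative P] (hfree : ∀ α ∈ E, ∀ v : P, v ≠ 1 → α v = v → α = 1)

include hfree

/-- The action on the nontrivial characters is free. -/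
theorem eq_one_of_comp_eq {α : MulAut P} (hα : α ∈ E) {l : P →* ℂˣ} (hl : l ≠ 1)
    (h : l.comp α.toMonoidHom = l) : α = 1 := by
  by_contra hne
  let φ : P → P := fun v => α v * v⁻¹
  have hinj : Function.Injective φ := fun v w hvw => by
    simp only [φ] at hvw
    have h1 : α (w⁻¹ * v) = w⁻¹ * v := by
      rw [map_mul, map_inv]
      calc (α w)⁻¹ * α v = (α w)⁻¹ * ((α v * v⁻¹) * v) := by group
        _ = w⁻¹ * v := by rw [hvw]; group
    by_contra hvw'
    exact hne (hfree α hα _ (fun e => hvw' (inv_mul_eq_one.1 e).symm) h1)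
  refine hl (MonoidHom.ext fun w => ?_)
  obtain ⟨v, rfl⟩ := (Finite.injective_iff_surjective.1 hinj) w
  have h1 : l (α v) = l v := DFunLike.congr_fun h v
  simp [φ, h1]

theorem comp_inj {l : P →* ℂˣ} (hl : l ≠ 1) {α β : E}
    (h : l.comp (α : MulAut P).toMonoidHom = l.comp (β : MulAut P).toMonoidHom) : α = β := by
  have h1 : l.comp ((α : MulAut P) * (β : MulAut P)⁻¹).toMonoidHom = l :=
    MonoidHom.ext fun v => by
      have := DFunLike.congr_fun h ((β : MulAut P).symm v)
      simpa using this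
  exact Subtype.ext (mul_inv_eq_one.1 (eq_one_of_comp_eq hfree (mul_mem α.2 (inv_mem β.2)) hl h1))

/-- Equal orbit sums come from one orbit. -/
theorem exists_comp_eq {l m : P →* ℂˣ} (hl : l ≠ 1) (hm : m ≠ 1)
    (h : orbitFun E l = orbitFun E m) : ∃ α : E, m = l.comp (α : MulAut P).toMonoidHom := by
  have hc : ∀ k : P →* ℂˣ, k ≠ 1 → coef (orbitFun E k) m =
      ∑ α : E, if m = k.comp (α : MulAut P).toMonoidHom then 1 else 0 := fun k hk => by
    rw [show orbitFun E k = fun x : {x : P // x ≠ 1} =>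
      ∑ α : E, (((k.comp (α : MulAut P).toMonoidHom) (x : P) : ℂˣ) : ℂ) from rfl, coef_sum]
    refine Finset.sum_congr rfl fun α _ => ?_
    rw [coef_linear, if_neg (comp_ne_one hk _), sub_zero]
  have h1 : coef (orbitFun E m) m = 1 := by
    rw [hc m hm, Finset.sum_eq_single (1 : E), if_pos (MonoidHom.ext fun v => by simp)]
    · exact fun α _ hα => if_neg fun e =>
        hα (Subtype.ext (eq_one_of_comp_eq hfree α.2 hm e.symm))
    · exact fun h' => absurd (Finset.mem_univ _) h'
  rw [← h, hc l hl] at h1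
  by_contra hne
  push Not at hne
  rw [Finset.sum_eq_zero fun α _ => if_neg (hne α)] at h1
  exact zero_ne_one h1

/-- The nontrivial characters are the translates of the representatives, once each. -/
theorem reps_bijective :
    Function.Bijective (fun z : orbitSums E × E =>
      (⟨(rep z.1).comp (z.2 : MulAut P).toMonoidHom, comp_ne_one (rep_spec z.1).1 _⟩ :
        {k : P →* ℂˣ // k ≠ 1})) := by
  constructor
  · rintro ⟨i, α⟩ ⟨j, β⟩ h
    have h' : (rep i).comp (α : MulAut P).toMonoidHom = (rep j).comp (β : MulAut P).toMonoidHom :=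
      congrArg Subtype.val h
    have hij : i = j := by
      refine Subtype.ext ?_
      rw [(rep_spec i).2, (rep_spec j).2, ← orbitFun_comp (rep i) α, h', orbitFun_comp]
    subst hij
    rw [comp_inj hfree (rep_spec i).1 h']
  · rintro ⟨k, hk⟩
    let i : orbitSums E := ⟨orbitFun E k, mem_orbitSums.2 ⟨k, hk, rfl⟩⟩
    obtain ⟨α, hα⟩ := exists_comp_eq hfree (rep_spec i).1 hk (rep_spec i).2.symm
    exact ⟨(i, α), Subtype.ext hα.symm⟩

/-- A sum over the nontrivial characters, orbit by orbit. -/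
theorem sum_nontrivial (F : (P →* ℂˣ) → ℂ) :
    ∑ k : P →* ℂˣ, F k - F 1 =
      ∑ i : orbitSums E, ∑ α : E, F ((rep i).comp (α : MulAut P).toMonoidHom) := by
  rw [← Finset.sum_erase_eq_sub (Finset.mem_univ _),
    Finset.sum_subtype (Finset.univ.erase (1 : P →* ℂˣ)) (p := fun k : P →* ℂˣ => k ≠ 1)
      (fun k => by simp) F, ← Fintype.sum_prod_type']
  exact ((reps_bijective hfree).sum_comp fun k => F k.1).symm

/-- The number of orbit sums. -/
theorem card_orbitSums : Nat.card (orbitSums E) * Nat.card E + 1 = Nat.card P := by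
  rw [← Nat.card_prod, Nat.card_congr (Equiv.ofBijective _ (reps_bijective hfree)),
    Nat.card_eq_fintype_card, Fintype.card_subtype_compl, Fintype.card_subtype_eq,
    ← Nat.card_eq_fintype_card, H27.card_linear]
  exact Nat.sub_add_cancel Nat.card_pos

/-- An invariant function in terms of the orbit sums. -/
theorem orbit_expansion {f : {x : P // x ≠ 1} → ℂ}
    (hf : ∀ α ∈ E, ∀ x : {x : P // x ≠ 1}, ∀ h : α (x : P) ≠ 1, f ⟨α (x : P), h⟩ = f x)
    (x : {x : P // x ≠ 1}) : f x = ∑ i : orbitSums E, coef f (rep i) * i.1 x := by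
  have h := sum_nontrivial hfree fun k => coef f k * ((k (x : P) : ℂˣ) : ℂ)
  rw [coef_one_eq_zero, zero_mul, sub_zero, ← coef_recon f x] at h
  rw [h]
  refine Finset.sum_congr rfl fun i _ => ?_
  rw [(rep_spec i).2, orbitFun, Finset.mul_sum]
  refine Finset.sum_congr rfl fun α _ => ?_
  rw [coef_comp (α : MulAut P) (hf _ α.2) (rep i)]
  rfl

/-- The orbit sums add up to minus one. -/
theorem sum_orbitSums (x : {x : P // x ≠ 1}) : ∑ i : orbitSums E, i.1 x = -1 := by
  have h := sum_nontrivial hfree fun k => ((k (x : P) : ℂˣ) : ℂ)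
  rw [H27.sum_linear_apply, if_neg x.2, MonoidHom.one_apply, Units.val_one, zero_sub] at h
  rw [h]
  exact Finset.sum_congr rfl fun i _ => by rw [(rep_spec i).2]; rfl

/-- Inner products of the orbit sums less their number of terms. -/
theorem sum_orbit_mul (i j : orbitSums E) :
    ∑ x : {x : P // x ≠ 1}, (i.1 x - (Nat.card E : ℂ)) * (conj (j.1 x) - (Nat.card E : ℂ)) =
      (Nat.card P : ℂ) * (Nat.card E : ℂ) *
        ((Nat.card E : ℂ) + if i = j then 1 else 0) := by
  let S : orbitSums E → P → ℂ := fun i v =>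
    ∑ α : E, (((rep i).comp (α : MulAut P).toMonoidHom v : ℂˣ) : ℂ)
  have hS : ∀ (i : orbitSums E) (x : {x : P // x ≠ 1}), i.1 x = S i x := fun i x => by
    rw [(rep_spec i).2]; rfl
  have hS1 : ∀ i, S i 1 = (Nat.card E : ℂ) := fun i => by simp [S, Nat.card_eq_fintype_card]
  simp only [hS]
  rw [sum_ne_one (fun v => (S i v - (Nat.card E : ℂ)) * (conj (S j v) - (Nat.card E : ℂ))), hS1,
    sub_self, zero_mul, sub_zero]
  have h0 : ∀ i, ∑ v : P, S i v = 0 := fun i => by
    rw [Finset.sum_comm]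
    exact Finset.sum_eq_zero fun α _ => H27.sum_apply_linear (comp_ne_one (rep_spec i).1 _)
  have h2 : ∑ v : P, S i v * conj (S j v) =
      (Nat.card P : ℂ) * (Nat.card E : ℂ) * if i = j then 1 else 0 := by
    simp only [S, map_sum, Finset.sum_mul_sum]
    rw [Finset.sum_comm]
    have : ∀ α β : E, ∑ v : P, (((rep i).comp (α : MulAut P).toMonoidHom v : ℂˣ) : ℂ) *
        conj (((rep j).comp (β : MulAut P).toMonoidHom v : ℂˣ) : ℂ) =
        if (i, α) = (j, β) then (Nat.card P : ℂ) else 0 := fun α β => by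
      set μ := (rep i).comp (α : MulAut P).toMonoidHom with hμ
      set ν := (rep j).comp (β : MulAut P).toMonoidHom with hν
      have hinj : μ = ν ↔ (i, α) = (j, β) := by
        constructor
        · intro h
          exact (reps_bijective hfree).1 (Subtype.ext h)
        · intro h
          obtain ⟨rfl, rfl⟩ := Prod.mk.inj h
          rfl
      rw [Finset.sum_congr rfl (g := fun v => (((μ * ν⁻¹) v : ℂˣ) : ℂ)) fun v _ => by
        rw [H27.conj_linear, MonoidHom.mul_apply, MonoidHom.inv_apply, map_inv, Units.val_mul]]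
      by_cases h : μ = ν
      · rw [if_pos (hinj.1 h), h]
        simp [Nat.card_eq_fintype_card]
      · rw [if_neg (fun e => h (hinj.2 e))]
        exact H27.sum_apply_linear fun e => h (mul_inv_eq_one.1 e)
    rw [Finset.sum_congr rfl fun α _ => Finset.sum_comm,
      Finset.sum_congr rfl fun α _ => Finset.sum_congr rfl fun β _ => this α β]
    by_cases hij : i = j
    · subst hij
      simp [Nat.card_eq_fintype_card, mul_comm]
    · simp [Prod.mk.injEq, hij]
  simp only [sub_mul, mul_sub, Finset.sum_sub_distrib, ← Finset.mul_sum, ← Finset.sum_mul,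
    ← map_sum, h0, h2, map_zero, Finset.sum_const, Finset.card_univ, nsmul_eq_mul,
    ← Nat.card_eq_fintype_card]
  ring

/-- The products of the columns of a shape are divisible by the order of `P`. -/
theorem Shape.products {G : Type u} [Group G] [Fintype G] {e : ℕ} (he : Nat.card E = e)
    {B X : Set (Cfsg.IrrCharacter G)} {D : Cfsg.IrrCharacter G → {x : P // x ≠ 1} → ℂ}
    {d : Cfsg.IrrCharacter G → ℤ} {d₀ : ℤ} (h : Shape E e B D X d d₀)
    (o o' : {x : P // x ≠ 1}) :
    ∃ n : ℕ, ∑ χ ∈ blockFinset B, D χ o * D χ o' = (Nat.card P : ℂ) * n := by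
  refine ⟨∑ α : E, if (o : P) * (α : MulAut P) (o' : P) = 1 then 1 else 0, ?_⟩
  have hX : X.toFinset ⊆ blockFinset B := fun χ hχ => mem_blockFinset.2
    (h.subset (Set.mem_toFinset.1 hχ))
  rw [← Finset.sum_sdiff hX]
  have h1 : ∑ χ ∈ X.toFinset, D χ o * D χ o' = (e : ℂ) := by
    rw [Finset.sum_congr rfl (g := fun _ => (1 : ℂ)) fun χ hχ => by
      rw [h.const χ (Set.mem_toFinset.1 hχ)]
      rcases h.sign χ (Set.mem_toFinset.1 hχ) with e | e <;> simp [e],
      Finset.sum_const, nsmul_one, ← Set.ncard_eq_toFinset_card', h.card]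
  have hsq : (d₀ : ℂ) * (d₀ : ℂ) = 1 := by rcases h.sign₀ with e | e <;> simp [e]
  have h2 : ∑ χ ∈ blockFinset B \ X.toFinset, D χ o * D χ o' =
      ∑ i : orbitSums E, i.1 o * i.1 o' := by
    refine Finset.sum_bij (fun χ hχ => (⟨fun x => (d₀ : ℂ) * D χ x, h.rest.mapsTo
      (by simpa [Set.mem_sdiff] using hχ)⟩ : orbitSums E)) (fun _ _ => Finset.mem_univ _)
      (fun χ hχ χ' hχ' e => h.rest.injOn (by simpa [Set.mem_sdiff] using hχ)
        (by simpa [Set.mem_sdiff] using hχ') (congrArg Subtype.val e))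
      (fun i _ => ?_) fun χ _ => ?_
    · obtain ⟨χ, hχ, he'⟩ := h.rest.surjOn i.2
      exact ⟨χ, by simpa [Set.mem_sdiff] using hχ, Subtype.ext he'⟩
    · linear_combination -(D χ o * D χ o') * hsq
  have h3 : ∑ i : orbitSums E, i.1 o * i.1 o' =
      ∑ α : E, ((if (o : P) * (α : MulAut P) (o' : P) = 1 then (Nat.card P : ℂ) else 0) - 1) := by
    rw [Finset.sum_congr rfl (g := fun α : E =>
      ∑ k : P →* ℂˣ, ((k ((o : P) * (α : MulAut P) (o' : P)) : ℂˣ) : ℂ) - 1) fun α _ => by
        rw [H27.sum_linear_apply]]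
    have := fun α : E => sum_nontrivial hfree fun k : P →* ℂˣ =>
      ((k ((o : P) * (α : MulAut P) (o' : P)) : ℂˣ) : ℂ)
    simp only [MonoidHom.one_apply, Units.val_one] at this
    rw [Finset.sum_congr rfl fun α _ => this α, Finset.sum_comm]
    refine Finset.sum_congr rfl fun i _ => ?_
    rw [(rep_spec i).2, Finset.sum_comm, orbitFun, Finset.sum_mul]
    refine Finset.sum_congr rfl fun β _ => ?_
    rw [orbitFun, Finset.mul_sum]
    refine Fintype.sum_equiv (Equiv.mulLeft β⁻¹) _ _ fun α => ?_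
    simp
  rw [h1, h2, h3, Finset.sum_sub_distrib, Finset.sum_const, Finset.card_univ,
    ← Nat.card_eq_fintype_card, he, nsmul_one]
  push_cast
  rw [Finset.mul_sum]
  simp only [mul_ite, mul_one, mul_zero, sub_add_cancel]

end Cfsg.Agent.H57.Cyclic
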