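import Cfsg.Agent.H40.Watanabe
import Cfsg.Agent.H22.StarParts
import Cfsg.Agent.H22.StarOrth

/-!
# The pairing of a star product with a character

For a maximal pair `(P, e)` with abelian `P` the inner product of `χ * η` with `ψ` is a sum over `P`:
at `v` the value of `η` times the pairing of the parts of `χ` and `ψ` in the block below the pair.
-/

set_option autoImplicit false
set_option linter.unusedSectionVars false

open scoped ComplexConjugate

namespace Cfsg.Agent.H57.Cyclic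

open Cfsg
open Cfsg.Agent.H22 (IsBlockEl IsMaxEl PLe el elTop cj cS pairStab wt CarriesInto PairStable dpart
  conjSet conjEquiv)
open Cfsg.Agent.H41 (ResField)
open Cfsg.Agent.H40.StarTrace (CZ)

universe u

variable {G : Type u} [Group G] [Fintype G] {p : ℕ} [Fact p.Prime] {M : Ideal Cfsg.AlgInt}
  [M.IsMaximal]

open scoped Classical in
/-- The pairing of the parts of two functions in a block of a section. -/
noncomputable def secPair (p : ℕ) (x : G) (c : Set (Cfsg.IrrCharacter (CZ x))) (χ ψ : G → ℂ) : ℂ :=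
  ∑ s ∈ Finset.univ.filter (fun s : CZ x => Cfsg.IsPRegular p s),
    Cfsg.Agent.H40.StarNorm.secPart χ x c s * conj (Cfsg.Agent.H40.StarNorm.secPart ψ x c s)

/-- A part on a section, as a part of the function itself. -/
theorem dpart_eq_secPart {x : G} {χ : G → ℂ} (hχ : Cfsg.IsClassFunction G χ)
    (c : Set (Cfsg.IrrCharacter (CZ x))) (s : CZ x) :
    dpart (CZ x) c χ (x * (s : G)) = Cfsg.Agent.H40.StarNorm.secPart χ x c s := by
  rw [H22.dpart_mul hχ]
  rfl

/-- Parts of a section are transported by conjugation. -/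
theorem secPart_conj {x g : G} {χ : G → ℂ} (hχ : Cfsg.IsClassFunction G χ)
    (h : cS g (CZ x) = CZ (g * x * g⁻¹)) (c : Set (Cfsg.IrrCharacter (CZ x))) (s : CZ x) :
    Cfsg.Agent.H40.StarNorm.secPart χ (g * x * g⁻¹) (conjSet g _ _ h c) (conjEquiv g _ _ h s) =
      Cfsg.Agent.H40.StarNorm.secPart χ x c s := by
  rw [← dpart_eq_secPart hχ, ← dpart_eq_secPart hχ, H22.coe_conjEquiv,
    show g * x * g⁻¹ * (g * (s : G) * g⁻¹) = g * (x * (s : G)) * g⁻¹ by group,
    H22.dpart_conjSet hχ g h]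

/-- The pairing is transported by conjugation. -/
theorem secPair_conj {x g : G} {χ ψ : G → ℂ} (hχ : Cfsg.IsClassFunction G χ)
    (hψ : Cfsg.IsClassFunction G ψ) (h : cS g (CZ x) = CZ (g * x * g⁻¹))
    (c : Set (Cfsg.IrrCharacter (CZ x))) :
    secPair p (g * x * g⁻¹) (conjSet g _ _ h c) χ ψ = secPair p x c χ ψ := by
  classical
  refine (Finset.sum_equiv (conjEquiv g _ _ h).toEquiv (fun s => ?_) fun s _ => ?_).symm
  · rw [Finset.mem_filter, Finset.mem_filter]
    simp [Cfsg.IsPRegular, MulEquiv.orderOf_eq]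
  · show _ = Cfsg.Agent.H40.StarNorm.secPart χ _ _ (conjEquiv g _ _ h s) *
      conj (Cfsg.Agent.H40.StarNorm.secPart ψ _ _ (conjEquiv g _ _ h s))
    rw [secPart_conj hχ h, secPart_conj hψ h]

open scoped Classical in
/-- The inner product with a star product, section by section. -/
theorem classInner_star_eq_sum (hM : Cfsg.IsPModular p M)
    (m : Subgroup G × MonoidAlgebra (ResField M) G) (η : G → ℂ) {χ ψ : G → ℂ}
    (hχ : Cfsg.IsClassFunction G χ) (hψ : Cfsg.IsClassFunction G ψ) :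
    Cfsg.classInner (H22.star p M m η χ) ψ = (Nat.card G : ℂ)⁻¹ *
      ∑ x ∈ Finset.univ.filter (fun x : G => ∃ k : ℕ, orderOf x = p ^ k),
        ∑ c ∈ H40.StarNorm.secBlocks M x, wt p m η x (el M (CZ x) c) * secPair p x c χ ψ := by
  simp only [Cfsg.classInner]
  congr 1
  rw [H40.StarNorm.sum_eq_sum_p_elements (p := p)]
  refine Finset.sum_congr rfl fun x hx => ?_
  have hx' := (Finset.mem_filter.1 hx).2
  rw [Finset.sum_congr rfl fun s hs => by
      rw [H40.StarNorm.star_mul_eq hχ hx' (Finset.mem_filter.1 hs).2, Finset.sum_mul],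
    Finset.sum_comm]
  refine Finset.sum_congr rfl fun c hc => ?_
  simp only [mul_assoc, ← Finset.mul_sum]
  rw [H40.StarNorm.sum_secPart_mul hM hψ hc]
  rfl

variable [CharP (ResField M) p] {B : Set (Cfsg.IrrCharacter G)} {P : Subgroup G}
  {e : MonoidAlgebra (ResField M) G}

open scoped Classical in
/-- **The pairing.** -/
theorem card_mul_classInner_star [Fintype P] (hM : Cfsg.IsPModular p M) (hB : Cfsg.IsPBlock M B)
    (hm : IsMaxEl p ⊤ (elTop M B) (P, e)) (hab : ∀ x ∈ P, ∀ y ∈ P, x * y = y * x)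
    (b : ∀ v : G, Set (Cfsg.IrrCharacter (CZ v)))
    (hb : ∀ v ∈ P, Cfsg.IsPBlock M (b v) ∧ CarriesInto p (P, e) v (el M (CZ v) (b v)) 1)
    {η : G → ℂ} (hst : PairStable p (P, e) η) {χ ψ : G → ℂ} (hχ : Cfsg.IsClassFunction G χ)
    (hψ : Cfsg.IsClassFunction G ψ) :
    (Nat.card (pairStab P e) : ℂ) * Cfsg.classInner (H22.star p M (P, e) η χ) ψ =
      ∑ v : P, η (v : G) *
        ((Nat.card (pairStab P e ⊓ CZ (v : G) : Subgroup G) : ℂ) /
          (Nat.card (CZ (v : G)) : ℂ) * secPair p (v : G) (b v) χ ψ) := by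
  set T : ℂ := (Nat.card (pairStab P e) : ℂ) with hT
  set Φ : G → ℂ := fun v => η v *
    ((Nat.card (pairStab P e ⊓ CZ v : Subgroup G) : ℂ) / (Nat.card (CZ v) : ℂ) *
      secPair p v (b v) χ ψ) with hΦ
  set X := Finset.univ.filter (fun x : G => ∃ k : ℕ, orderOf x = p ^ k) with hX
  have hG : (Nat.card G : ℂ) ≠ 0 := Nat.cast_ne_zero.2 Nat.card_pos.ne'
  have hterm : ∀ x ∈ X, ∀ c ∈ H40.StarNorm.secBlocks M x,
      T * (wt p (P, e) η x (el M (CZ x) c) * secPair p x c χ ψ) =
        ∑ g : G, if CarriesInto p (P, e) x (el M (CZ x) c) g then Φ (g * x * g⁻¹) else 0 := by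
    intro x _ c hc
    by_cases h : ∃ g₀, CarriesInto p (P, e) x (el M (CZ x) c) g₀
    · have hcb := H40.StarNorm.mem_secBlocks.1 hc
      rw [← Finset.sum_filter]
      set S := Finset.univ.filter (fun g : G => CarriesInto p (P, e) x (el M (CZ x) c) g) with hSdef
      have hkey : ∀ g₀, CarriesInto p (P, e) x (el M (CZ x) c) g₀ →
          T * (wt p (P, e) η x (el M (CZ x) c) * secPair p x c χ ψ) =
            (S.card : ℂ) * Φ (g₀ * x * g₀⁻¹) := by
        intro g₀ hg₀
        have hz := H40.StarTrace.cS_CZ g₀ x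
        have hcar : CarriesInto p (P, e) (g₀ * x * g₀⁻¹)
            (el M (CZ (g₀ * x * g₀⁻¹)) (conjSet g₀ _ _ hz c)) 1 := by
          rw [H22.el_conjSet, H22.carriesInto_conj, one_mul]
          exact hg₀
        have hv : g₀ * x * g₀⁻¹ ∈ P :=
          hg₀.le (H22.conj_mem_cS (Subgroup.mem_zpowers x))
        obtain ⟨d, -, hu⟩ := H40.StarTrace.existsUnique_carried hM hB hm hab
          (g := (1 : G)) (x := g₀ * x * g₀⁻¹) (by simpa using hv)
        have heq : conjSet g₀ _ _ hz c = b (g₀ * x * g₀⁻¹) :=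
          (hu _ ⟨H40.StarNorm.mem_secBlocks.2 (H22.isPBlock_conjSet hz hcb), hcar⟩).trans
            (hu _ ⟨H40.StarNorm.mem_secBlocks.2 (hb _ hv).1, (hb _ hv).2⟩).symm
        have hS := H40.StarTrace.card_translate_mul (pairStab P e) (CZ (g₀ * x * g₀⁻¹)) g₀ S
          fun g => by
            rw [hSdef, Finset.mem_filter]
            simpa using H40.StarTrace.carries_iff hM hB hm hab hg₀ hcb g
        have hS' : (S.card : ℂ) *
            (Nat.card (pairStab P e ⊓ CZ (g₀ * x * g₀⁻¹) : Subgroup G) : ℂ) =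
            T * (Nat.card (CZ (g₀ * x * g₀⁻¹)) : ℂ) := by
          rw [hT]; exact_mod_cast hS
        have hC : (Nat.card (CZ (g₀ * x * g₀⁻¹)) : ℂ) ≠ 0 :=
          Nat.cast_ne_zero.2 Nat.card_pos.ne'
        simp only [hΦ]
        rw [H22.wt_eq hst hg₀, ← secPair_conj hχ hψ hz, heq]
        field_simp
        linear_combination (-(η (g₀ * x * g₀⁻¹) *
          secPair p (g₀ * x * g₀⁻¹) (b (g₀ * x * g₀⁻¹)) χ ψ)) * hS'
      obtain ⟨g₁, hg₁⟩ := h
      have hS0 : (S.card : ℂ) ≠ 0 := Nat.cast_ne_zero.2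
        (Finset.card_ne_zero_of_mem (Finset.mem_filter.2 ⟨Finset.mem_univ g₁, hg₁⟩))
      rw [Finset.sum_congr (s₁ := S) rfl (g := fun _ =>
          (S.card : ℂ)⁻¹ * (T * (wt p (P, e) η x (el M (CZ x) c) * secPair p x c χ ψ)))
          fun g hg => by rw [hkey g (Finset.mem_filter.1 hg).2, inv_mul_cancel_left₀ hS0],
        Finset.sum_const, nsmul_eq_mul, mul_inv_cancel_left₀ hS0]
    · rw [H22.wt_of_forall_not fun g hg => h ⟨g, hg⟩, zero_mul, mul_zero]
      exact (Finset.sum_eq_zero fun g _ => if_neg fun hg => h ⟨g, hg⟩).symm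
  rw [classInner_star_eq_sum hM _ _ hχ hψ, ← mul_assoc, mul_comm T, mul_assoc,
    Finset.mul_sum (a := T),
    Finset.sum_congr rfl fun x hx => by
      rw [Finset.mul_sum, Finset.sum_congr rfl (hterm x hx), Finset.sum_comm],
    Finset.sum_comm]
  rw [Finset.sum_congr rfl (g := fun _ : G => ∑ v : P, Φ v) fun g _ => ?_]
  · rw [Finset.sum_const, nsmul_eq_mul, Finset.card_univ, ← Nat.card_eq_fintype_card,
      inv_mul_cancel_left₀ hG]
  · have hval : ∀ x ∈ X, (∑ c ∈ H40.StarNorm.secBlocks M x,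
        if CarriesInto p (P, e) x (el M (CZ x) c) g then Φ (g * x * g⁻¹) else 0) =
        if g * x * g⁻¹ ∈ P then Φ (g * x * g⁻¹) else 0 := by
      intro x _
      split_ifs with h
      · obtain ⟨c, hc, hu⟩ := H40.StarTrace.existsUnique_carried hM hB hm hab h
        rw [Finset.sum_eq_single c (fun c' hc' hne => if_neg fun h' => hne (hu c' ⟨hc', h'⟩))
          (fun h' => absurd hc.1 h'), if_pos hc.2]
      · exact Finset.sum_eq_zero fun c _ => if_neg fun h' => h
          (h'.le (H22.conj_mem_cS (Subgroup.mem_zpowers x)))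
    rw [Finset.sum_congr rfl hval, ← Finset.sum_filter]
    refine Finset.sum_bij (fun x hx => (⟨g * x * g⁻¹, (Finset.mem_filter.1 hx).2⟩ : P))
      (fun _ _ => Finset.mem_univ _)
      (fun a _ b _ h => by simpa using congrArg Subtype.val h) (fun v _ => ?_) fun _ _ => rfl
    have hv : g * (g⁻¹ * (v : G) * g) * g⁻¹ = (v : G) := by group
    obtain ⟨k, hk⟩ := IsPGroup.iff_orderOf.1 hm.pair.pGroup v
    refine ⟨g⁻¹ * (v : G) * g, Finset.mem_filter.2 ⟨Finset.mem_filter.2 ⟨Finset.mem_univ _, k, ?_⟩,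
      by rw [hv]; exact v.2⟩, Subtype.ext hv⟩
    rw [← hk, ← Subgroup.orderOf_coe, ← (MulAut.conj g).orderOf_eq, MulAut.conj_apply, hv]

end Cfsg.Agent.H57.Cyclic
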