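import Cfsg.Agent.H57.Cyclic.Decomp
import Cfsg.Agent.H57.Cyclic.Normal
import Cfsg.Agent.H57.Cyclic.CyclicAut
import Cfsg.Agent.H42.Heights

/-!
# The phase of the decomposition numbers

For a character of height zero the products with conjugate decomposition numbers have integral
coefficients. A factor of absolute value one, invariant under the inertial group and compatible with
field automorphisms, makes the coefficients of all decomposition numbers integers.
-/

set_option autoImplicit false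
set_option linter.unusedSectionVars false

open scoped ComplexConjugate Classical

namespace Cfsg.Agent.H57.Cyclic

open Cfsg
open Cfsg.Agent.H22 (IsMaxEl el elTop pairStab PairStable dpart stabConj)
open Cfsg.Agent.H41 (ResField res localRing)
open Cfsg.Agent.H40.StarTrace (CZ)
open Cfsg.Agent.H40.NilpotentBlocks (ext0 ext0_coe ext0_one)
open Cfsg.Agent.H42 (blockFinset mem_blockFinset)

universe u

variable {G : Type u} [Group G] [Fintype G] {p : ℕ} [Fact p.Prime] {M : Ideal Cfsg.AlgInt}
  [M.IsMaximal] [CharP (ResField M) p] {B : Set (Cfsg.IrrCharacter G)} {P : Subgroup G}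
  {e : MonoidAlgebra (ResField M) G}

/-- The automorphisms of `P` induced by the inertial group. -/
noncomputable def inertAut (P : Subgroup G) (e : MonoidAlgebra (ResField M) G) : Subgroup (MulAut P) :=
  (stabConj P e).range

theorem mem_inertAut {α : MulAut P} :
    α ∈ inertAut P e ↔ ∃ t : pairStab P e, stabConj P e t = α := Iff.rfl

/-- The group of induced automorphisms has the order of the inertial quotient. -/
theorem card_inertAut :
    Nat.card (inertAut P e) = (Subgroup.centralizer (P : Set G)).relIndex (pairStab P e) := by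
  have hker : (stabConj P e).ker = (Subgroup.centralizer (P : Set G)).subgroupOf (pairStab P e) := by
    ext t
    rw [MonoidHom.mem_ker, Subgroup.mem_subgroupOf, Subgroup.mem_centralizer_iff]
    constructor
    · intro h x hx
      have h1 := congrArg (fun β : MulAut P => ((β ⟨x, hx⟩ : P) : G)) h
      simp only [H22.coe_stabConj, MulAut.one_apply] at h1
      calc x * (t : G) = ((t : G) * x * (t : G)⁻¹) * t := by rw [h1]
        _ = (t : G) * x := by group
    · intro h
      refine MulEquiv.ext fun x => Subtype.ext ?_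
      rw [H22.coe_stabConj, MulAut.one_apply, ← h x x.2, mul_inv_cancel_right]
  rw [inertAut, ← Subgroup.index_ker, hker]
  rfl

theorem relIndex_ne_zero :
    (Subgroup.centralizer (P : Set G)).relIndex (pairStab P e) ≠ 0 := by
  rw [← card_inertAut]
  exact Nat.card_pos.ne'

/-- An automorphism moves the elements other than the identity. -/
def autV (α : MulAut P) : {x : P // x ≠ 1} ≃ {x : P // x ≠ 1} :=
  α.toEquiv.subtypeEquiv fun x => (not_congr (MulEquiv.map_eq_one_iff α)).symm

omit [Fintype G] in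
@[simp] theorem autV_coe (α : MulAut P) (v : {x : P // x ≠ 1}) : ((autV α v : _) : P) = α v := rfl

/-- The decomposition numbers on the elements other than the identity. -/
noncomputable def dv (p : ℕ) (M : Ideal Cfsg.AlgInt) [M.IsMaximal] (P : Subgroup G)
    (e : MonoidAlgebra (ResField M) G) (χ : Cfsg.IrrCharacter G) (v : {x : P // x ≠ 1}) : ℂ :=
  dec p M P e (χ : G → ℂ) ((v : P) : G)

omit [Fintype G] in
theorem coe_ne_one (v : {x : P // x ≠ 1}) : ((v : P) : G) ≠ 1 := fun h => v.2 (Subtype.ext h)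

variable (hM : Cfsg.IsPModular p M) (hB : Cfsg.IsPBlock M B)
  (hm : IsMaxEl p ⊤ (elTop M B) (P, e)) (hcyc : IsCyclic P)

include hM hB hm hcyc

/-- An induced automorphism with a fixed point other than the identity is trivial. -/
theorem inertAut_fixed {α : MulAut P} (hα : α ∈ inertAut P e) {v : P} (hv : v ≠ 1)
    (h : α v = v) : α = 1 := by
  obtain ⟨t, rfl⟩ := hα
  have hv1 : (v : G) ≠ 1 := fun h' => hv (Subtype.ext h')
  have h1 : (t : G) * v * (t : G)⁻¹ = v := congrArg Subtype.val h
  have ht : (t : G) ∈ pairStab P e ⊓ CZ (v : G) := ⟨t.2, by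
    refine H32.mem_centralizer_zpowers_iff.2 ?_
    show (t : G) * v = v * t
    calc (t : G) * v = ((t : G) * v * (t : G)⁻¹) * t := by group
      _ = v * t := by rw [h1]⟩
  rw [pairStab_inf_CZ hM hB hm hcyc v.2 hv1] at ht
  refine MulEquiv.ext fun x => Subtype.ext ?_
  rw [H22.coe_stabConj, MulAut.one_apply, ← Subgroup.mem_centralizer_iff.1 ht x x.2,
    mul_inv_cancel_right]

theorem dv_aut (χ : Cfsg.IrrCharacter G) {α : MulAut P} (hα : α ∈ inertAut P e)
    (v : {x : P // x ≠ 1}) : dv p M P e χ (autV α v) = dv p M P e χ v := by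
  obtain ⟨t, rfl⟩ := hα
  show dec p M P e (χ : G → ℂ) ((stabConj P e t (v : P) : P) : G) = _
  rw [H22.coe_stabConj]
  exact dec_conj hM hB hm hcyc (H26.irr_isClassFunction χ) t.2 (v : P).2 (coe_ne_one v)

theorem isIntegral_dv (χ : Cfsg.IrrCharacter G) (v : {x : P // x ≠ 1}) :
    IsIntegral ℤ (dv p M P e χ v) :=
  isIntegral_dec hM hB hm hcyc χ (v : P).2 (coe_ne_one v)

/-- Characters outside the block have no decomposition numbers. -/
theorem dv_eq_zero {χ : Cfsg.IrrCharacter G} (hχ : χ ∉ B) (v : {x : P // x ≠ 1}) :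
    dv p M P e χ v = 0 := by
  have hv := (v : P).2
  obtain ⟨hc, -, hind, -⟩ := cb_spec hM hB hm hcyc hv
  have h1 : ¬ p ∣ orderOf (1 : CZ ((v : P) : G)) := by simpa using (Fact.out : p.Prime).not_dvd_one
  have hb := congrFun (H56.Subsec.bpart_eq_zero hM (exists_orderOf_eq hM hB hm hcyc hv) hind hχ) 1
  rw [H40.StarTrace.bpart_eq_secPart, if_pos (show Cfsg.IsPRegular p (1 : CZ ((v : P) : G)) from h1),
    ← dpart_eq_secPart (H26.irr_isClassFunction χ), OneMemClass.coe_one, mul_one, Pi.zero_apply] at hb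
  rw [dv, dec, hb, zero_div]

variable [Fintype P]

theorem isMulComm : IsMulCommutative P :=
  IsCyclic.isMulCommutative (α := P)

/-- The pairings with stable generalised characters vanishing at the identity are integers. -/
theorem exists_int_pairing {θ : P → ℂ} (hgen : Cfsg.IsGeneralizedCharacter P θ)
    (hinv : ∀ α ∈ inertAut P e, ∀ v, θ (α v) = θ v) (h1 : θ 1 = 0) (χ ψ : Cfsg.IrrCharacter G) :
    ∃ z : ℤ, ∑ v : {x : P // x ≠ 1}, θ v * (dv p M P e χ v * conj (dv p M P e ψ v)) =
      (Nat.card P : ℂ) * ((Subgroup.centralizer (P : Set G)).relIndex (pairStab P e) : ℂ) * z := by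
  have hst : PairStable p (P, e) (ext0 θ) :=
    H40.Watanabe.pairStable_ext0 hM hB hm (comm_of_cyclic hcyc) fun t ht v w hw => by
      have hα : stabConj P e ⟨t, ht⟩ ∈ inertAut P e := ⟨_, rfl⟩
      rw [← hinv _ hα v]
      exact congrArg θ (Subtype.ext (hw.trans (H22.coe_stabConj P e ⟨t, ht⟩ v).symm))
  obtain ⟨z, hz⟩ := H22.exists_int_classInner_star hM hB hm hst
    (by rw [show (fun x : P => ext0 θ (x : G)) = θ from funext fun x => ext0_coe _ x]; exact hgen)
    (H26.irr_isCharacter χ) ψ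
  refine ⟨z, ?_⟩
  rw [← hz, classInner_star_eq hM hB hm hcyc hst (by rw [ext0_one, h1]) χ ψ]
  exact Finset.sum_congr rfl fun v _ => by rw [ext0_coe]; rfl

omit hM hB hm hcyc in
/-- A sum over the induced automorphisms of a linear character, less their number. -/
theorem isGeneralized_orbit (l : P →* ℂˣ) :
    Cfsg.IsGeneralizedCharacter P fun v =>
      (∑ α : inertAut P e, conj ((l ((α : MulAut P) v) : ℂˣ) : ℂ)) -
        (Nat.card (inertAut P e) : ℂ) := by
  show _ ∈ H27.genChars P
  have hlin : ∀ μ : P →* ℂˣ, (fun v : P => ((μ v : ℂˣ) : ℂ)) ∈ H27.genChars P := fun μ =>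
    H27.mem_genChars_of_isCharacter (H26.isCharacter_of_irr (H26.isIrrCharacter_hom μ))
  rw [show (fun v => (∑ α : inertAut P e, conj ((l ((α : MulAut P) v) : ℂˣ) : ℂ)) -
        (Nat.card (inertAut P e) : ℂ)) =
      (∑ α : inertAut P e, fun v : P => (((l⁻¹).comp (α : MulAut P).toMonoidHom v : ℂˣ) : ℂ)) -
        (Nat.card (inertAut P e) : ℕ) • (fun v : P => (((1 : P →* ℂˣ) v : ℂˣ) : ℂ)) from
    funext fun v => by
      simp [Finset.sum_apply, H27.conj_linear, map_inv]]
  exact sub_mem (sum_mem fun α _ => hlin _) (nsmul_mem (hlin 1) _)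

/-- The coefficients of the products with conjugate decomposition numbers are integers. -/
theorem exists_int_coef (χ ψ : Cfsg.IrrCharacter G) (l : P →* ℂˣ) :
    ∃ z : ℤ, coef (fun v => dv p M P e χ v * conj (dv p M P e ψ v)) l = (z : ℂ) := by
  obtain ⟨z, hz⟩ := exists_int_pairing hM hB hm hcyc (isGeneralized_orbit (e := e) l)
    (fun β hβ v => by
      refine congrArg (· - _) (Fintype.sum_equiv (Equiv.mulRight (⟨β, hβ⟩ : inertAut P e)) _ _
        fun α => ?_)
      rfl)
    (by simp [Nat.card_eq_fintype_card]) χ ψ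
  refine ⟨z, ?_⟩
  set f := fun v => dv p M P e χ v * conj (dv p M P e ψ v) with hf
  have hα : ∀ α : inertAut P e, ∑ v : {x : P // x ≠ 1},
      (conj ((l ((α : MulAut P) v) : ℂˣ) : ℂ) - 1) * f v = (Nat.card P : ℂ) * coef f l := fun α => by
    rw [coef, ← mul_assoc, mul_inv_cancel₀ card_ne_zero', one_mul]
    refine Eq.trans (Fintype.sum_equiv (M := ℂ) (autV (α : MulAut P)) _
      (fun v => (conj ((l (v : P) : ℂˣ) : ℂ) - 1) * f v) fun v => ?_)
      (Finset.sum_congr (by ext; simp) fun _ _ => rfl)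
    rw [autV_coe, hf]
    dsimp only
    rw [dv_aut hM hB hm hcyc χ α.2, dv_aut hM hB hm hcyc ψ α.2]
  have h : ∑ v : {x : P // x ≠ 1},
      ((∑ α : inertAut P e, conj ((l ((α : MulAut P) v) : ℂˣ) : ℂ)) -
        (Nat.card (inertAut P e) : ℂ)) * f v =
      (Nat.card P : ℂ) * (Nat.card (inertAut P e) : ℂ) * coef f l := by
    rw [Finset.sum_congr rfl (g := fun v : {x : P // x ≠ 1} => ∑ α : inertAut P e,
        (conj ((l ((α : MulAut P) v) : ℂˣ) : ℂ) - 1) * f v) fun v _ => by
          rw [← Finset.sum_mul, Finset.sum_sub_distrib]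
          simp [Nat.card_eq_fintype_card],
      Finset.sum_comm, Finset.sum_congr rfl fun α _ => hα α, Finset.sum_const, Finset.card_univ,
      ← Nat.card_eq_fintype_card, nsmul_eq_mul]
    ring
  rw [h, card_inertAut] at hz
  exact mul_left_cancel₀ (mul_ne_zero card_ne_zero' (Nat.cast_ne_zero.2 relIndex_ne_zero)) hz

theorem hasLocalCoef_mul (χ ψ : Cfsg.IrrCharacter G) :
    HasLocalCoef M fun v => dv p M P e χ v * conj (dv p M P e ψ v) := fun l => by
  obtain ⟨z, hz⟩ := exists_int_coef hM hB hm hcyc χ ψ l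
  rw [hz]
  exact intCast_mem _ z

/-- The inertial index divides `p - 1`. -/
theorem relIndex_dvd_pred :
    (Subgroup.centralizer (P : Set G)).relIndex (pairStab P e) ∣ p - 1 := by
  have : IsCyclic P := hcyc
  rw [← card_inertAut]
  refine card_dvd_pred hm.pair.pGroup (inertAut P e) ?_
  rw [card_inertAut]
  exact H40.not_dvd_relIndex_pairStab hM hB hm (comm_of_cyclic hcyc)

/-- A factor which makes the coefficients of all decomposition numbers local. -/
theorem exists_phase {χ₀ : Cfsg.IrrCharacter G} (hχ₀ : χ₀ ∈ B)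
    (h0 : Cfsg.blockHeight p B (χ₀ : G → ℂ) = 0) :
    ∃ γ : {x : P // x ≠ 1} → ℂ, (∀ v, IsIntegral ℤ (γ v)) ∧ (∀ v, γ v * conj (γ v) = 1) ∧
      (∀ α ∈ inertAut P e, ∀ v, γ (autV α v) = γ v) ∧
      (∀ ψ ∈ B, HasLocalCoef M fun v => γ v * dv p M P e ψ v) ∧
      ∀ (σ : ℂ ≃+* ℂ) (k : ℕ), k.Coprime (Nat.card G) →
        (∀ z : ℂ, z ^ Nat.card G = 1 → σ z = z ^ k) → ∀ (v : {x : P // x ≠ 1})
          (hv : (v : P) ^ k ≠ 1), σ (γ v) = γ ⟨(v : P) ^ k, hv⟩ := by
  have := isMulComm hM hB hm hcyc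
  obtain ⟨a, ha⟩ := IsPGroup.iff_card.1 hm.pair.pGroup
  let d := dv p M P e χ₀
  let N : {x : P // x ≠ 1} → ℕ := fun v => decRes p M P e χ₀ ((v : P) : G)
  have hN : ∀ v, (N v : ResField M) ≠ 0 := fun v =>
    (dec_ne_zero hM hB hm hcyc hχ₀ h0 (v : P).2 (coe_ne_one v)).1
  have hn1 : 0 < Nat.card G := Nat.card_pos
  have hk₀ : (Nat.card G - 1).Coprime (Nat.card G) := by
    conv => arg 2; rw [show Nat.card G = (Nat.card G - 1) + 1 by omega]
    exact Nat.coprime_self_add_right.2 (Nat.coprime_one_right _)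
  have hinvpow : ∀ g : G, g ^ (Nat.card G - 1) = g⁻¹ := fun g => by
    refine eq_inv_of_mul_eq_one_left ?_
    rw [← pow_succ, Nat.sub_add_cancel hn1, pow_card_eq_one']
  have hNinv : ∀ v : {x : P // x ≠ 1},
      (decRes p M P e χ₀ ((v : P) : G)⁻¹ : ResField M) = N v := fun v => by
    rw [← hinvpow, decRes_pow hM hB hm hcyc χ₀ hk₀ (v : P).2 (coe_ne_one v)]
  have hconj : ∀ v : {x : P // x ≠ 1}, conj (d v) = dec p M P e (χ₀ : G → ℂ) ((v : P) : G)⁻¹ :=
    fun v => (dec_inv hM hB hm hcyc χ₀ (v : P).2 (coe_ne_one v)).symm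
  have hf : ∀ ψ, HasLocalCoef M fun v => conj (d v) * dv p M P e ψ v := fun ψ =>
    (hasLocalCoef_mul hM hB hm hcyc ψ χ₀).congr fun v => mul_comm _ _
  rcases (Fact.out : p.Prime).eq_two_or_odd' with hp2 | hp2
  · -- trivial inertial quotient: the conjugate of the height zero column itself
    have he : (Subgroup.centralizer (P : Set G)).relIndex (pairStab P e) = 1 := by
      have h := relIndex_dvd_pred hM hB hm hcyc
      subst hp2
      exact Nat.dvd_one.1 h
    have hunit : ∀ v, d v * conj (d v) = 1 := fun v => by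
      refine eq_one_of_nonneg hM ha (fun v => d v * conj (d v))
        (exists_int_coef hM hB hm hcyc χ₀ χ₀)
        (fun v => ⟨Complex.normSq (d v), Complex.normSq_nonneg _, Complex.mul_conj _⟩) ?_
        (fun v => ?_) v
      · set δ : G → ℂ := fun g => if g = 1 then 1 else 0 with hδ
        obtain ⟨r, hr0, hr⟩ := H40.StarNorm.classInner_star_self_nonneg (m := (P, e)) hM
          (η := δ) (H26.irr_isClassFunction χ₀)
          (fun g => by
            simp only [δ]
            split_ifs <;> [exact ⟨1, zero_le_one, by simp⟩; exact ⟨0, le_rfl, by simp⟩])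
        let η : G → ℂ := (fun _ => (1 : ℂ)) + fun g => (-1 : ℂ) * δ g
        have hst : PairStable p (P, e) η := fun Q g _ q _ => by simp [η, δ, conj_eq_one_iff]
        have h := classInner_star_eq hM hB hm hcyc hst (by simp [η, δ]) χ₀ χ₀
        have hstar : H22.star p M (P, e) η (χ₀ : G → ℂ) =
            (χ₀ : G → ℂ) + (-1 : ℂ) • H22.star p M (P, e) δ (χ₀ : G → ℂ) := funext fun g => by
          rw [Pi.add_apply, Pi.smul_apply, smul_eq_mul, H40.StarNorm.star_add,
            H40.StarNorm.star_smul, H40.StarNorm.star_one hM hB hm hχ₀]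
        rw [hstar, he, Nat.cast_one, mul_one, H26.classInner_add_left, H26.classInner_smul_left,
          hr, H26.classInner_irr, if_pos rfl] at h
        refine ⟨(Nat.card P : ℝ) * r, by positivity, ?_⟩
        rw [Finset.sum_congr rfl (g := fun v : {x : P // x ≠ 1} => d v * conj (d v))
          fun v _ => by simp [η, δ, coe_ne_one v, d, dv]] at h
        push_cast
        convert show (Nat.card P : ℂ) - ∑ v : {x : P // x ≠ 1}, d v * conj (d v) =
          (Nat.card P : ℂ) * (r : ℂ) by linear_combination h using 3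
        ext; simp
      · refine ⟨mul_mem (H41.isIntegral_mem_localRing (isIntegral_dv hM hB hm hcyc χ₀ v))
          (H41.isIntegral_mem_localRing ((isIntegral_dv hM hB hm hcyc χ₀ v).map
            (starRingEnd ℂ).toIntAlgHom)), fun hx => ?_⟩
        have hv' : ((v : P) : G)⁻¹ ∈ P := inv_mem (v : P).2
        rw [show (⟨d v * conj (d v), hx⟩ : localRing M) =
            ⟨_, H41.isIntegral_mem_localRing (isIntegral_dec hM hB hm hcyc χ₀ (v : P).2 (coe_ne_one v))⟩ *
            ⟨_, H41.isIntegral_mem_localRing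
              (isIntegral_dec hM hB hm hcyc χ₀ hv' (inv_ne_one.2 (coe_ne_one v)))⟩ from
          Subtype.ext (by rw [MulMemClass.coe_mul]; exact congrArg (d v * ·) (hconj v)),
          map_mul, res_dec hM hB hm hcyc χ₀ (v : P).2 (coe_ne_one v),
          res_dec hM hB hm hcyc χ₀ hv' (inv_ne_one.2 (coe_ne_one v)), hNinv]
        exact mul_ne_zero (hN v) (hN v)
    refine ⟨fun v => conj (d v), fun v =>
        (isIntegral_dv hM hB hm hcyc χ₀ v).map (starRingEnd ℂ).toIntAlgHom,
      fun v => by rw [Complex.conj_conj, mul_comm, hunit],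
      fun α hα v => congrArg conj (dv_aut hM hB hm hcyc χ₀ hα v), fun ψ _ => hf ψ,
      fun σ k hk hσ v hv => ?_⟩
    dsimp only
    rw [hconj, hconj, ringAut_dec hM hB hm hcyc χ₀ σ hk hσ (inv_mem (v : P).2)
      (inv_ne_one.2 (coe_ne_one v))]
    exact congrArg _ (by simp)
  · -- odd characteristic: a sign
    obtain ⟨ψ₀, -, hψ₀⟩ := exists_conj_dec hM hB hm hcyc hχ₀
    obtain ⟨γ, hγ, hγN, hγf⟩ := exists_sign hM ha hp2 d (fun v => conj (d v)) N hN
      (fun v => dec_pow_card hM hB hm hcyc χ₀ (v : P).2 (coe_ne_one v))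
      (fun v => ⟨_, hNinv v, by
        rw [hconj]
        exact dec_pow_card hM hB hm hcyc χ₀ (inv_mem (v : P).2) (inv_ne_one.2 (coe_ne_one v))⟩)
      ((hasLocalCoef_mul hM hB hm hcyc χ₀ ψ₀).congr fun v => by
        rw [show dv p M P e ψ₀ v = conj (d v) from hψ₀ _ (v : P).2 (coe_ne_one v),
          Complex.conj_conj])
      (hf χ₀)
    refine ⟨fun v => (γ v : ℂ), fun v => H42.isIntegral_intCast _, fun v => ?_, fun α hα v => ?_,
      fun ψ _ => hγf _ (hf ψ), fun σ k hk hσ v hv => ?_⟩
    · rcases hγ v with h | h <;> simp [h]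
    · refine congrArg _ (hγN _ _ ?_)
      simp only [N]
      rw [← res_dec hM hB hm hcyc χ₀ (autV α v : P).2 (coe_ne_one _),
        ← res_dec hM hB hm hcyc χ₀ (v : P).2 (coe_ne_one v)]
      exact congrArg (res M) (Subtype.ext (dv_aut hM hB hm hcyc χ₀ hα v))
    · rw [map_intCast]
      refine congrArg _ (hγN _ _ ?_)
      simp only [N, SubmonoidClass.coe_pow]
      exact (decRes_pow hM hB hm hcyc χ₀ hk (v : P).2 (coe_ne_one v)).symm

omit hM hB hm hcyc in
/-- A local number with an integral multiple by a power of `p` is an integer. -/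
theorem exists_int_of_local (hM : Cfsg.IsPModular p M) {x : ℂ} (hx : x ∈ localRing M) :
    ∀ (n : ℕ) (m : ℤ), (p : ℂ) ^ n * x = (m : ℂ) → ∃ z : ℤ, x = (z : ℂ) := by
  intro n
  induction n with
  | zero =>
    intro m h
    exact ⟨m, by rwa [pow_zero, one_mul] at h⟩
  | succ n ih =>
    intro m h
    have h1 : (m : localRing M) = (p : localRing M) * ((p : localRing M) ^ n * ⟨x, hx⟩) :=
      Subtype.ext (by
        push_cast
        rw [← h, pow_succ]
        ring)
    have h2 := congrArg (res M) h1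
    rw [map_intCast, map_mul, map_natCast, H41.IsPModular.natCast_resField hM, zero_mul] at h2
    obtain ⟨t, rfl⟩ := (H41.IsPModular.intCast_eq_zero_iff hM m).1 h2
    refine ih t ?_
    have hp0 : (p : ℂ) ≠ 0 := Nat.cast_ne_zero.2 (Fact.out : p.Prime).ne_zero
    push_cast at h
    rw [pow_succ] at h
    exact mul_left_cancel₀ hp0 (by rw [← h]; ring)

/-- With the phase the coefficients are integers. -/
theorem exists_int_coef_phase {γ : {x : P // x ≠ 1} → ℂ} (hγi : ∀ v, IsIntegral ℤ (γ v))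
    (hγσ : ∀ (σ : ℂ ≃+* ℂ) (k : ℕ), k.Coprime (Nat.card G) →
      (∀ z : ℂ, z ^ Nat.card G = 1 → σ z = z ^ k) → ∀ (v : {x : P // x ≠ 1})
        (hv : (v : P) ^ k ≠ 1), σ (γ v) = γ ⟨(v : P) ^ k, hv⟩)
    {ψ : Cfsg.IrrCharacter G} (hψ : HasLocalCoef M fun v => γ v * dv p M P e ψ v)
    (l : P →* ℂˣ) : ∃ z : ℤ, coef (fun v => γ v * dv p M P e ψ v) l = (z : ℂ) := by
  obtain ⟨a, ha⟩ := IsPGroup.iff_card.1 hm.pair.pGroup
  set S := ∑ v : {x : P // x ≠ 1},
    (conj ((l (v : P) : ℂˣ) : ℂ) - 1) * (γ v * dv p M P e ψ v) with hS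
  have hint : IsIntegral ℤ S := IsIntegral.sum _ fun v _ =>
    (((isIntegral_linear l _).map (starRingEnd ℂ).toIntAlgHom).sub isIntegral_one).mul
      ((hγi v).mul (isIntegral_dv hM hB hm hcyc ψ v))
  obtain ⟨m, hm'⟩ := H45.exists_int_of_forall_ringAut hint fun σ => by
    obtain ⟨k, hk, hσ⟩ := H45.exists_pow_of_ringAut σ (Nat.card_pos (α := G)).ne'
    have hkP : k.Coprime (Nat.card P) := hk.coprime_dvd_right (Subgroup.card_subgroup_dvd_card P)
    have hb := H45.powCoprime_bijective (G := P) hkP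
    let π : {x : P // x ≠ 1} ≃ {x : P // x ≠ 1} :=
      (Equiv.ofBijective _ hb).subtypeEquiv fun x => by
        show x ≠ 1 ↔ x ^ k ≠ 1
        exact not_congr ⟨fun h => by rw [h, one_pow], fun h => hb.1 (by simpa using h)⟩
    rw [hS, map_sum]
    refine Fintype.sum_equiv π _ _ fun v => ?_
    rw [map_mul, map_mul, map_sub, map_one, hγσ σ k hk hσ v (π v).2]
    have h1 : σ (conj ((l (v : P) : ℂˣ) : ℂ)) = conj ((l ((v : P) ^ k) : ℂˣ) : ℂ) := by
      rw [H27.conj_linear, H27.conj_linear, hσ, ← Units.val_pow_eq_pow_val, ← map_pow, inv_pow]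
      rw [← Units.val_pow_eq_pow_val, ← map_pow]
      have : ((v : P)⁻¹) ^ Nat.card G = 1 := by
        obtain ⟨t, ht⟩ := Subgroup.card_subgroup_dvd_card P
        rw [ht, pow_mul, pow_card_eq_one', one_pow]
      rw [this, map_one, Units.val_one]
    have h2 : σ (dv p M P e ψ v) = dv p M P e ψ (π v) := by
      refine (ringAut_dec hM hB hm hcyc ψ σ hk hσ (v : P).2 (coe_ne_one v)).trans ?_
      rfl
    rw [h1, h2]
    rfl
  refine exists_int_of_local hM (hψ l) a m ?_
  have hc : coef (fun v => γ v * dv p M P e ψ v) l = (Nat.card P : ℂ)⁻¹ * S := by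
    rw [coef, hS]
    exact congrArg _ (Finset.sum_congr (by ext; simp) fun _ _ => rfl)
  rw [hc, ← Nat.cast_pow, ← ha, ← mul_assoc, mul_inv_cancel₀ card_ne_zero', one_mul]
  exact hm'

end Cfsg.Agent.H57.Cyclic
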