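import Cfsg.Agent.H57.Cyclic.Pairing
import Cfsg.Agent.H40.StarIntComb
import Cfsg.Agent.H22.CyclicSubpair
import Cfsg.Agent.H40.RegularBlocks
import Cfsg.Agent.H26.CharLinear

/-!
# The sections of a block with cyclic defect group

At `v` in the group of a maximal pair lies one block of `C(v)`; for `v ≠ 1` it is nilpotent, its members
agree on regular elements, and the part of a character in it is a multiple of their common values.
-/

set_option autoImplicit false
set_option linter.unusedSectionVars false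

open scoped ComplexConjugate

namespace Cfsg.Agent.H57.Cyclic

open Cfsg
open Cfsg.Agent.H22 (IsBlockEl IsMaxEl PLe Below el elTop cj cS pairStab CarriesInto PairStable dpart
  conjSet conjEquiv)
open Cfsg.Agent.H41 (ResField res localRing)
open Cfsg.Agent.H42 (regRes)
open Cfsg.Agent.H40.StarTrace (CZ)

universe u

/-- In a nilpotent block with abelian defect group all members agree on regular elements, the rank is one
and the regular norm of a member is the inverse of the order of the defect group. -/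
theorem nilpotent_abelian {K : Type u} [Group K] [Fintype K] {p : ℕ} [Fact p.Prime]
    {M : Ideal Cfsg.AlgInt} [M.IsMaximal] [CharP (ResField M) p] (hM : Cfsg.IsPModular p M)
    {b : Set (Cfsg.IrrCharacter K)} (hnil : Cfsg.IsNilpotentBlock p M b) {D : Subgroup K}
    (hD : Cfsg.IsDefectGroup p M b D) (hab : ∀ x ∈ D, ∀ y ∈ D, x * y = y * x) :
    (∀ φ ∈ b, ∀ φ' ∈ b, ∀ s : K, ¬ p ∣ orderOf s → (φ : K → ℂ) s = (φ' : K → ℂ) s) ∧
      Cfsg.blockRank p b = 1 ∧
      ∀ φ ∈ b, (Nat.card D : ℂ) * Cfsg.classInner (regRes p (φ : K → ℂ)) (φ : K → ℂ) = 1 := by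
  classical
  have : Fintype D := Fintype.ofFinite D
  obtain ⟨ε, hm⟩ := H40.NilpotentBlocks.exists_isMaxEl_of_defect hM hnil.1 hD
  have hint := H40.NilpotentBlocks.starInt hM hnil.1 hm
  obtain ⟨χ, hχ, h0⟩ := H41.exists_height_zero (p := p) (H41.IsPBlock.nonempty hnil.1)
  obtain ⟨Φ, hΦ, -⟩ := H40.NilpotentBlocks.exists_equiv hnil hm hint hM hD hχ h0
  have hdeg : ∀ l : Cfsg.IrrCharacter D, (Cfsg.charDegree (l : D → ℂ) : ℂ) = 1 := fun l =>
    (H42.irr_one_eq l).symm.trans
      (H26.irr_one_eq_one_of_comm (fun x y => Subtype.ext (hab x x.2 y y.2)) l)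
  have hreg : ∀ φ ∈ b, ∀ s : K, ¬ p ∣ orderOf s → (φ : K → ℂ) s = (χ : K → ℂ) s :=
    fun φ hφ s hs => by rw [hΦ ⟨φ, hφ⟩ s hs, hdeg, one_mul]
  have hres : ∀ φ ∈ b, regRes p (φ : K → ℂ) = regRes p (χ : K → ℂ) := fun φ hφ => funext fun s => by
    by_cases hs : p ∣ orderOf s
    · rw [H42.regRes_of_singular hs, H42.regRes_of_singular hs]
    · rw [H42.regRes_of_regular hs, H42.regRes_of_regular hs, hreg φ hφ s hs]
  refine ⟨fun φ hφ φ' hφ' s hs => by rw [hreg φ hφ s hs, hreg φ' hφ' s hs], ?_, fun φ hφ => ?_⟩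
  · have himg : (fun φ : Cfsg.IrrCharacter K => Cfsg.pRegularPart p (φ : K → ℂ)) '' b =
        {Cfsg.pRegularPart p (χ : K → ℂ)} := by
      ext f
      constructor
      · rintro ⟨φ, hφ, rfl⟩
        funext s
        simp only [Cfsg.pRegularPart, Cfsg.IsPRegular]
        by_cases hs : p ∣ orderOf s
        · simp [hs]
        · simp [hs, hreg φ hφ s hs]
      · rintro rfl
        exact ⟨χ, hχ, rfl⟩
    rw [Cfsg.blockRank, himg, finrank_span_singleton]
    intro hz
    have h1 := congrFun hz 1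
    simp only [Cfsg.pRegularPart, Cfsg.IsPRegular, Pi.zero_apply, orderOf_one] at h1
    rw [if_pos (Fact.out : p.Prime).not_dvd_one] at h1
    exact H26.irr_one_ne_zero χ h1
  · have heq : Cfsg.classInner (regRes p (φ : K → ℂ)) (φ : K → ℂ) =
        Cfsg.classInner (regRes p (χ : K → ℂ)) (χ : K → ℂ) := by
      rw [hres φ hφ, Cfsg.classInner, Cfsg.classInner]
      refine congrArg _ (Finset.sum_congr rfl fun s _ => ?_)
      by_cases hs : p ∣ orderOf s
      · rw [H42.regRes_of_singular hs, zero_mul, zero_mul]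
      · rw [hreg φ hφ s hs]
    rw [heq, ← H40.NilpotentBlocks.dual_one hnil hm hint hM hχ χ,
      H40.NilpotentBlocks.dual_self_eq_one hnil hm hint hM hD hχ h0, map_one]

variable {G : Type u} [Group G] [Fintype G] {p : ℕ} [Fact p.Prime] {M : Ideal Cfsg.AlgInt}
  [M.IsMaximal] [CharP (ResField M) p] {B : Set (Cfsg.IrrCharacter G)} {P : Subgroup G}
  {e : MonoidAlgebra (ResField M) G}

open scoped Classical in
/-- The block of `C(v)` below the pair `(P, e)`. -/
noncomputable def cb (p : ℕ) (M : Ideal Cfsg.AlgInt) [M.IsMaximal] (P : Subgroup G)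
    (e : MonoidAlgebra (ResField M) G) (v : G) : Set (Cfsg.IrrCharacter (CZ v)) :=
  if h : ∃ c : Set (Cfsg.IrrCharacter (CZ v)),
    Cfsg.IsPBlock M c ∧ CarriesInto p (P, e) v (el M (CZ v) c) 1 then h.choose else ∅

open scoped Classical in
/-- The common degree of the members of the block at `v`. -/
noncomputable def cdeg (p : ℕ) (M : Ideal Cfsg.AlgInt) [M.IsMaximal] (P : Subgroup G)
    (e : MonoidAlgebra (ResField M) G) (v : G) : ℂ :=
  if h : (cb p M P e v).Nonempty then (h.choose : CZ v → ℂ) 1 else 1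

/-- The decomposition number of `χ` at `v`. -/
noncomputable def dec (p : ℕ) (M : Ideal Cfsg.AlgInt) [M.IsMaximal] (P : Subgroup G)
    (e : MonoidAlgebra (ResField M) G) (χ : G → ℂ) (v : G) : ℂ :=
  dpart (CZ v) (cb p M P e v) χ v / cdeg p M P e v

open scoped Classical in
/-- The common values on regular elements of the members of the block at `v`. -/
noncomputable def cphi (p : ℕ) (M : Ideal Cfsg.AlgInt) [M.IsMaximal] (P : Subgroup G)
    (e : MonoidAlgebra (ResField M) G) (v : G) : CZ v → ℂ :=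
  if h : (cb p M P e v).Nonempty then (h.choose : CZ v → ℂ) else fun _ => 1

variable (hM : Cfsg.IsPModular p M) (hB : Cfsg.IsPBlock M B)
  (hm : IsMaxEl p ⊤ (elTop M B) (P, e)) (hcyc : IsCyclic P)

include hcyc in
theorem comm_of_cyclic : ∀ x ∈ P, ∀ y ∈ P, x * y = y * x := fun x hx y hy =>
  congrArg Subtype.val ((IsCyclic.isMulCommutative (α := P)).is_comm.comm ⟨x, hx⟩ ⟨y, hy⟩)

theorem carries_one_iff {v : G} {f : MonoidAlgebra (ResField M) G} :
    CarriesInto p (P, e) v f 1 ↔ PLe p ⊤ (Subgroup.zpowers v, f) (P, e) := by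
  unfold H22.CarriesInto
  rw [H40.StarTrace.cS_zpowers, one_mul, inv_one, mul_one,
    show cj (1 : G) f = f from H40.ext_coeff fun x => by rw [H22.coeff_cj]; simp]

include hM hB hm hcyc

theorem cb_spec {v : G} (hv : v ∈ P) :
    Cfsg.IsPBlock M (cb p M P e v) ∧ CarriesInto p (P, e) v (el M (CZ v) (cb p M P e v)) 1 ∧
      Cfsg.IsInducedBlock M (CZ v) (cb p M P e v) B ∧
      Cfsg.blockDefect p (cb p M P e v) = Cfsg.blockDefect p B := by
  classical
  have hab := comm_of_cyclic hcyc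
  obtain ⟨c, hc, hcar, hind, hbd⟩ := H40.Watanabe.exists_cyclic_block hM hB hm hab hv
  have h : ∃ c : Set (Cfsg.IrrCharacter (CZ v)),
      Cfsg.IsPBlock M c ∧ CarriesInto p (P, e) v (el M (CZ v) c) 1 := ⟨c, hc, hcar⟩
  have heq : cb p M P e v = c := by
    rw [cb, dif_pos h]
    obtain ⟨d, -, hu⟩ := H40.StarTrace.existsUnique_carried hM hB hm hab (g := (1 : G)) (x := v)
      (by simpa using hv)
    exact (hu _ ⟨H40.StarNorm.mem_secBlocks.2 h.choose_spec.1, h.choose_spec.2⟩).trans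
      (hu _ ⟨H40.StarNorm.mem_secBlocks.2 hc, hcar⟩).symm
  rw [heq]
  exact ⟨hc, hcar, hind, hbd⟩

theorem cb_unique {v : G} (hv : v ∈ P) {c : Set (Cfsg.IrrCharacter (CZ v))}
    (hc : Cfsg.IsPBlock M c) (hcar : CarriesInto p (P, e) v (el M (CZ v) c) 1) :
    c = cb p M P e v := by
  obtain ⟨d, -, hu⟩ := H40.StarTrace.existsUnique_carried hM hB hm (comm_of_cyclic hcyc)
    (g := (1 : G)) (x := v) (by simpa using hv)
  obtain ⟨h1, h2, -⟩ := cb_spec hM hB hm hcyc hv
  exact (hu _ ⟨H40.StarNorm.mem_secBlocks.2 hc, hcar⟩).trans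
    (hu _ ⟨H40.StarNorm.mem_secBlocks.2 h1, h2⟩).symm

/-- The block depends on the subgroup generated only. -/
theorem el_cb_eq {v w : G} (hv : v ∈ P) (hw : w ∈ P) (h : Subgroup.zpowers v = Subgroup.zpowers w) :
    el M (CZ v) (cb p M P e v) = el M (CZ w) (cb p M P e w) := by
  have h1 := carries_one_iff.1 (cb_spec hM hB hm hcyc hv).2.1
  have h2 := carries_one_iff.1 (cb_spec hM hB hm hcyc hw).2.1
  rw [h] at h1
  exact H22.ple_unique (H22.split M G) hm.pair h1 h2

omit hM hB hm hcyc in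
/-- What is read off a block of a subgroup depends on its element of the group algebra only. -/
theorem transport {α : Sort*} (F : ∀ K : Subgroup G, Set (Cfsg.IrrCharacter K) → α)
    {K K' : Subgroup G} (hK : K = K') {c : Set (Cfsg.IrrCharacter K)}
    {c' : Set (Cfsg.IrrCharacter K')} (hc : Cfsg.IsPBlock M c) (hc' : Cfsg.IsPBlock M c')
    (h : el M K c = el M K' c') : F K c = F K' c' := by
  subst hK
  rw [H22.el_inj hc hc' h]

/-- At an element other than the identity the block is nilpotent with abelian defect group `P`. -/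
theorem cb_nilpotent {v : G} (hv : v ∈ P) (hv1 : v ≠ 1) :
    Cfsg.IsNilpotentBlock p M (cb p M P e v) ∧
      Cfsg.IsDefectGroup p M (cb p M P e v) (P.subgroupOf (CZ v)) ∧ P ≤ CZ v := by
  have hS := H22.split M G
  have hb := H22.isBlockEl_elTop hB
  obtain ⟨hc, hcar, -, -⟩ := cb_spec hM hB hm hcyc hv
  obtain ⟨hns, hmax⟩ := H40.isMaxEl_local hM hB hm (comm_of_cyclic hcyc) (carries_one_iff.1 hcar)
  refine ⟨H22.isNilpotentBlock_sub hc (H22.isNilEl_centralizer hS hb hm hcyc hns fun h => hv1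
      (Subgroup.mem_bot.1 (h ▸ Subgroup.mem_zpowers v))), ?_, hmax.pair.le⟩
  exact (H22.isDefectGroup_subgroupOf_iff hM hc hmax.pair.le).2
    (hmax.isDefEl hS (H22.isBlockEl_el hc))

open scoped Classical in
/-- The local facts at an element other than the identity. -/
theorem cb_local {v : G} (hv : v ∈ P) (hv1 : v ≠ 1) :
    (∀ φ ∈ cb p M P e v, ∀ s : CZ v, ¬ p ∣ orderOf s →
        (φ : CZ v → ℂ) s = cphi p M P e v s) ∧
      Cfsg.blockRank p (cb p M P e v) = 1 ∧ cdeg p M P e v = cphi p M P e v 1 ∧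
      cdeg p M P e v ≠ 0 ∧ (∀ s, IsIntegral ℤ (cphi p M P e v s)) ∧
      (Nat.card P : ℂ) * Cfsg.classInner (regRes p (cphi p M P e v)) (cphi p M P e v) = 1 := by
  classical
  obtain ⟨hnil, hD, hPC⟩ := cb_nilpotent hM hB hm hcyc hv hv1
  have hab := comm_of_cyclic hcyc
  obtain ⟨h1, h2, h3⟩ := nilpotent_abelian hM hnil hD
    fun x hx y hy => Subtype.ext (hab _ hx _ hy)
  have hne : (cb p M P e v).Nonempty := H41.IsPBlock.nonempty hnil.1
  rw [Nat.card_congr (Subgroup.subgroupOfEquivOfLe hPC).toEquiv] at h3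
  have hφ : cphi p M P e v = (hne.choose : CZ v → ℂ) := by rw [cphi, dif_pos hne]
  refine ⟨fun φ hφ' s hs => ?_, h2, ?_, ?_, fun s => ?_, ?_⟩
  · rw [hφ]; exact h1 φ hφ' _ hne.choose_spec s hs
  · rw [hφ, cdeg, dif_pos hne]
  · rw [cdeg, dif_pos hne]; exact H26.irr_one_ne_zero _
  · rw [hφ]; exact H42.isIntegral_value (H26.irr_isCharacter hne.choose) s
  · rw [hφ]; exact h3 _ hne.choose_spec

omit hM hB hm hcyc in
/-- The part of a class function in a block whose members agree on regular elements. -/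
theorem blockPart_eq_mul {K : Type u} [Group K] [Finite K] {b : Set (Cfsg.IrrCharacter K)}
    {f φ₀ : K → ℂ} {s : K} (h : ∀ φ ∈ b, (φ : K → ℂ) s = φ₀ s)
    (h1 : ∀ φ ∈ b, (φ : K → ℂ) 1 = φ₀ 1) :
    Cfsg.blockPart b f s * φ₀ 1 = Cfsg.blockPart b f 1 * φ₀ s := by
  classical
  have : Fintype K := Fintype.ofFinite K
  simp only [Cfsg.blockPart, finsum_mem_eq_finite_toFinset_sum _ (Set.toFinite b)]
  rw [Finset.sum_mul, Finset.sum_mul]
  refine Finset.sum_congr rfl fun φ hφ => ?_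
  rw [h φ ((Set.toFinite b).mem_toFinset.1 hφ), h1 φ ((Set.toFinite b).mem_toFinset.1 hφ)]
  ring

/-- The part of a class function on a section is its decomposition number times the common values. -/
theorem secPart_eq_dec {χ : G → ℂ} (hχ : Cfsg.IsClassFunction G χ) {v : G} (hv : v ∈ P) (hv1 : v ≠ 1)
    (s : CZ v) (hs : ¬ p ∣ orderOf s) :
    H40.StarNorm.secPart χ v (cb p M P e v) s = dec p M P e χ v * cphi p M P e v s := by
  obtain ⟨hφ, -, hdeg, hd0, -, -⟩ := cb_local hM hB hm hcyc hv hv1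
  have h1 : ¬ p ∣ orderOf (1 : CZ v) := by simpa using (Fact.out : p.Prime).not_dvd_one
  have e1 : dpart (CZ v) (cb p M P e v) χ v =
      H40.StarNorm.secPart χ v (cb p M P e v) 1 := by
    rw [← dpart_eq_secPart hχ, OneMemClass.coe_one, mul_one]
  rw [dec, e1, hdeg, div_mul_eq_mul_div, eq_div_iff (hdeg ▸ hd0)]
  exact blockPart_eq_mul (fun φ h => hφ φ h s hs) fun φ h => hφ φ h 1 h1

/-- The pairing of two parts. -/
theorem secPair_eq {χ ψ : G → ℂ} (hχ : Cfsg.IsClassFunction G χ) (hψ : Cfsg.IsClassFunction G ψ)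
    {v : G} (hv : v ∈ P) (hv1 : v ≠ 1) :
    secPair p v (cb p M P e v) χ ψ / (Nat.card (CZ v) : ℂ) =
      dec p M P e χ v * conj (dec p M P e ψ v) / (Nat.card P : ℂ) := by
  classical
  obtain ⟨-, -, -, -, -, hn⟩ := cb_local hM hB hm hcyc hv hv1
  have hP0 : (Nat.card P : ℂ) ≠ 0 := Nat.cast_ne_zero.2 Nat.card_pos.ne'
  have hC0 : (Nat.card (CZ v) : ℂ) ≠ 0 := Nat.cast_ne_zero.2 Nat.card_pos.ne'
  set S := ∑ s ∈ Finset.univ.filter (fun s : CZ v => Cfsg.IsPRegular p s),
    cphi p M P e v s * conj (cphi p M P e v s) with hS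
  have h1 : secPair p v (cb p M P e v) χ ψ = dec p M P e χ v * conj (dec p M P e ψ v) * S := by
    rw [secPair, hS, Finset.mul_sum]
    refine Finset.sum_congr rfl fun s hs => ?_
    rw [secPart_eq_dec hM hB hm hcyc hχ hv hv1 s (Finset.mem_filter.1 hs).2,
      secPart_eq_dec hM hB hm hcyc hψ hv hv1 s (Finset.mem_filter.1 hs).2, map_mul]
    ring
  have h2 : Cfsg.classInner (regRes p (cphi p M P e v)) (cphi p M P e v) =
      (Nat.card (CZ v) : ℂ)⁻¹ * S := by
    rw [Cfsg.classInner, hS, Finset.sum_filter]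
    refine congrArg _ (Finset.sum_congr rfl fun s _ => ?_)
    unfold Cfsg.IsPRegular
    by_cases h : p ∣ orderOf s
    · rw [H42.regRes_of_singular h, zero_mul, if_neg (not_not.2 h)]
    · rw [H42.regRes_of_regular h, if_pos h]
  rw [h2] at hn
  rw [h1]
  field_simp at hn ⊢
  linear_combination (dec p M P e χ v * conj (dec p M P e ψ v)) * hn

/-- Decomposition numbers are invariant under the inertial group. -/
theorem dec_conj {χ : G → ℂ} (hχ : Cfsg.IsClassFunction G χ) {t : G} (ht : t ∈ pairStab P e)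
    {v : G} (hv : v ∈ P) (hv1 : v ≠ 1) :
    dec p M P e χ (t * v * t⁻¹) = dec p M P e χ v := by
  classical
  obtain ⟨hc, hcar, -, -⟩ := cb_spec hM hB hm hcyc hv
  have hv' : t * v * t⁻¹ ∈ P := (Subgroup.mem_normalizer_iff.1 ht.1 v).1 hv
  have hv'1 : t * v * t⁻¹ ≠ 1 := fun h => hv1 (by
    have := congrArg (fun z => t⁻¹ * z * t) h
    simpa [mul_assoc] using this)
  have hz := H40.StarTrace.cS_CZ t v
  have heq : conjSet t _ _ hz (cb p M P e v) = cb p M P e (t * v * t⁻¹) := by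
    refine cb_unique hM hB hm hcyc hv' (H22.isPBlock_conjSet hz hc) (carries_one_iff.2 ?_)
    rw [H22.el_conjSet, ← H40.StarTrace.cS_zpowers]
    exact H40.ple_conj_of_mem_pairStab hM hB hm (carries_one_iff.1 hcar) ht
  obtain ⟨hφ, -, hdeg, -, -, -⟩ := cb_local hM hB hm hcyc hv hv1
  obtain ⟨hφ', -, hdeg', -, -, -⟩ := cb_local hM hB hm hcyc hv' hv'1
  have h1 : ¬ p ∣ orderOf (1 : CZ v) := by simpa using (Fact.out : p.Prime).not_dvd_one
  have h1' : ¬ p ∣ orderOf (1 : CZ (t * v * t⁻¹)) := by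
    simpa using (Fact.out : p.Prime).not_dvd_one
  obtain ⟨φ, hφm⟩ := H41.IsPBlock.nonempty hc
  have hmem : H43.irrCongr (conjEquiv t _ _ hz).symm φ ∈ cb p M P e (t * v * t⁻¹) :=
    heq ▸ Set.mem_image_of_mem _ hφm
  have hd : cdeg p M P e (t * v * t⁻¹) = cdeg p M P e v := by
    rw [hdeg, hdeg', ← hφ φ hφm 1 h1, ← hφ' _ hmem 1 h1', H43.irrCongr_apply, map_one]
  rw [dec, dec, hd, ← heq, H22.dpart_conjSet hχ t hz]

end Cfsg.Agent.H57.Cyclic
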