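import Cfsg.Agent.H57.Cyclic.Phase
import Cfsg.Agent.H57.Cyclic.Orbit
import Cfsg.Agent.H57.Cyclic.Gram
import Cfsg.Agent.H20.Cyclic.Local

/-!
# The values of a block with cyclic defect group

Up to a factor of absolute value one the decomposition numbers are `e` constant signs and, up to one
sign, the orbit sums of the nontrivial linear characters of the defect group; the block has regular
rank the inertial index.
-/

set_option autoImplicit false
set_option linter.unusedSectionVars false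

open scoped ComplexConjugate Classical

namespace Cfsg.Agent.H57.Cyclic

open Cfsg
open Cfsg.Agent.H22 (IsMaxEl el elTop pairStab PairStable dpart)
open Cfsg.Agent.H41 (ResField res localRing)
open Cfsg.Agent.H40.StarTrace (CZ)
open Cfsg.Agent.H40.NilpotentBlocks (ext0 ext0_coe ext0_one)
open Cfsg.Agent.H42 (blockFinset mem_blockFinset)

universe u

variable {G : Type u} [Group G] [Fintype G] {p : ℕ} [Fact p.Prime] {M : Ideal Cfsg.AlgInt}
  [M.IsMaximal] [CharP (ResField M) p] {B : Set (Cfsg.IrrCharacter G)} {P : Subgroup G}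
  {e : MonoidAlgebra (ResField M) G}

/-- A nonidentity element of `P` times a regular element commuting with it is singular. -/
theorem dvd_orderOf_mul {h v : G} {j : ℕ} (hv1 : v ≠ 1) (hj : orderOf v = p ^ j)
    (hh : ¬ p ∣ orderOf h) (hc : Commute h v) : p ∣ orderOf (h * v) := by
  have hj0 : j ≠ 0 := by
    rintro rfl
    exact hv1 (orderOf_eq_one_iff.1 (by rw [hj, pow_zero]))
  rw [hc.orderOf_mul_eq_mul_orderOf_of_coprime (hj ▸ (Nat.Coprime.pow_right j
    ((Fact.out : p.Prime).coprime_iff_not_dvd.2 hh).symm)), hj]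
  exact (dvd_pow_self p hj0).mul_left _

variable (hM : Cfsg.IsPModular p M) (hB : Cfsg.IsPBlock M B)
  (hm : IsMaxEl p ⊤ (elTop M B) (P, e)) (hcyc : IsCyclic P)

include hM hB hm hcyc

/-- The decomposition numbers are orthogonal to the values at regular elements. -/
theorem sum_char_mul_dv {s : G} (hs : ¬ p ∣ orderOf s) (v : {x : P // x ≠ 1}) :
    ∑ χ ∈ blockFinset B, (χ : G → ℂ) s * dv p M P e χ v = 0 := by
  have hv := (v : P).2
  obtain ⟨hc, -, -, -⟩ := cb_spec hM hB hm hcyc hv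
  obtain ⟨j, hj⟩ := exists_orderOf_eq hM hB hm hcyc hv
  simp only [dv, dec, dpart, finsum_eq_sum_of_fintype, mul_div_assoc', ← Finset.sum_div,
    Finset.mul_sum]
  rw [Finset.sum_comm, Finset.sum_eq_zero fun h _ => ?_, zero_div]
  by_cases hh : p ∣ orderOf h
  · exact Finset.sum_eq_zero fun χ _ => by
      rw [H40.blockCoeff_eq_zero_of_singular hM hc hh, zero_mul, mul_zero]
  · have hcomm : Commute (h : G) ((v : P) : G) := H32.mem_centralizer_zpowers_iff.1 h.2
    have hsing : p ∣ orderOf ((((h : G) * ((v : P) : G)))⁻¹) := by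
      rw [orderOf_inv]
      exact dvd_orderOf_mul (coe_ne_one v) hj (by rwa [Subgroup.orderOf_coe]) hcomm
    have h0 := H40.sum_block_mul_conj_eq_zero hM hB hs hsing
    rw [Finset.sum_congr rfl (g := fun χ : Cfsg.IrrCharacter G =>
      Cfsg.blockCoeff (cb p M P e ((v : P) : G)) h *
        ((χ : G → ℂ) s * conj ((χ : G → ℂ) (((h : G) * ((v : P) : G))⁻¹)))) fun χ _ => by
      rw [← H26.irr_inv, inv_inv]; ring, ← Finset.mul_sum]
    exact mul_eq_zero_of_right _ (h0 ▸ Finset.sum_congr (by ext; simp) fun _ _ => rfl)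

variable [Fintype P]

theorem gamma_dv_invariant {γ : {x : P // x ≠ 1} → ℂ}
    (hγE : ∀ α ∈ inertAut P e, ∀ v, γ (autV α v) = γ v) (ψ : Cfsg.IrrCharacter G) {α : MulAut P}
    (hα : α ∈ inertAut P e) (v : {x : P // x ≠ 1}) (h : α (v : P) ≠ 1) :
    γ ⟨α (v : P), h⟩ * dv p M P e ψ ⟨α (v : P), h⟩ = γ v * dv p M P e ψ v := by
  rw [show (⟨α (v : P), h⟩ : {x : P // x ≠ 1}) = autV α v from Subtype.ext rfl, hγE α hα v,
    dv_aut hM hB hm hcyc ψ hα v]

theorem pairStable_of_invariant {θ : P → ℂ} (hθ : ∀ α ∈ inertAut P e, ∀ v, θ (α v) = θ v) :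
    PairStable p (P, e) (ext0 θ) :=
  H40.Watanabe.pairStable_ext0 hM hB hm (comm_of_cyclic hcyc) fun t ht v w hw => by
    rw [← hθ _ (show H22.stabConj P e ⟨t, ht⟩ ∈ inertAut P e from ⟨_, rfl⟩) v]
    exact congrArg θ (Subtype.ext (hw.trans (H22.coe_stabConj P e ⟨t, ht⟩ v).symm))

/-- An invariant function to be paired against the height zero column. -/
noncomputable def gramFun (γ d : {x : P // x ≠ 1} → ℂ) (i₀ : ℕ)
    (i : orbitSums (inertAut P e)) (v : P) : ℂ :=
  if h : v = 1 then 0 else (i.1 ⟨v, h⟩ - (i₀ : ℂ)) * conj (γ ⟨v, h⟩) / d ⟨v, h⟩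

omit hM hB hm hcyc in
theorem gramFun_coe (γ d : {x : P // x ≠ 1} → ℂ) (i₀ : ℕ) (i : orbitSums (inertAut P e))
    (v : {x : P // x ≠ 1}) :
    gramFun γ d i₀ i (v : P) = (i.1 v - (i₀ : ℂ)) * conj (γ v) / d v := by
  rw [gramFun, dif_neg v.2]

omit hM hB hm hcyc in
theorem gramFun_one (γ d : {x : P // x ≠ 1} → ℂ) (i₀ : ℕ) (i : orbitSums (inertAut P e)) :
    gramFun γ d i₀ i 1 = 0 := by
  rw [gramFun, dif_pos rfl]

theorem gramFun_invariant {γ : {x : P // x ≠ 1} → ℂ}
    (hγE : ∀ α ∈ inertAut P e, ∀ v, γ (autV α v) = γ v) (χ : Cfsg.IrrCharacter G) (i₀ : ℕ)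
    (i : orbitSums (inertAut P e)) {α : MulAut P} (hα : α ∈ inertAut P e) (v : P) :
    gramFun γ (dv p M P e χ) i₀ i (α v) = gramFun γ (dv p M P e χ) i₀ i v := by
  by_cases hv : v = 1
  · subst hv
    rw [map_one]
  · suffices hh : ∀ w : {x : P // x ≠ 1},
        gramFun γ (dv p M P e χ) i₀ i ((autV α w : {x : P // x ≠ 1}) : P) =
          gramFun γ (dv p M P e χ) i₀ i (w : P) from hh ⟨v, hv⟩
    intro w
    rw [gramFun_coe, gramFun_coe, hγE α hα, dv_aut hM hB hm hcyc χ hα,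
      show i.1 (autV α w) = i.1 w from orbitSums_invariant i hα w (autV α w).2]

/-- The coefficients are orthogonal integral vectors. -/
theorem exists_gram {γ : {x : P // x ≠ 1} → ℂ} (hγi : ∀ v, IsIntegral ℤ (γ v))
    (hγn : ∀ v, γ v * conj (γ v) = 1) (hγE : ∀ α ∈ inertAut P e, ∀ v, γ (autV α v) = γ v)
    (hγA : ∀ ψ ∈ B, HasLocalCoef M fun v => γ v * dv p M P e ψ v)
    (hγσ : ∀ (σ : ℂ ≃+* ℂ) (k : ℕ), k.Coprime (Nat.card G) →
      (∀ z : ℂ, z ^ Nat.card G = 1 → σ z = z ^ k) → ∀ (v : {x : P // x ≠ 1})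
        (hv : (v : P) ^ k ≠ 1), σ (γ v) = γ ⟨(v : P) ^ k, hv⟩)
    {χ₀ : Cfsg.IrrCharacter G} (hd0 : ∀ v, dv p M P e χ₀ v ≠ 0) :
    ∃ x : orbitSums (inertAut P e) → Cfsg.IrrCharacter G → ℤ,
      (∀ i ψ, coef (fun v => γ v * dv p M P e ψ v) (rep i) = (x i ψ : ℂ)) ∧
      (∀ ψ v, γ v * dv p M P e ψ v = ∑ i : orbitSums (inertAut P e), (x i ψ : ℂ) * i.1 v) ∧
      ∀ i j, ∑ ψ ∈ blockFinset B, x i ψ * x j ψ =
        (((Subgroup.centralizer (P : Set G)).relIndex (pairStab P e) : ℕ) : ℤ) +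
          if i = j then 1 else 0 := by
  have := isMulComm hM hB hm hcyc
  set i₀ := (Subgroup.centralizer (P : Set G)).relIndex (pairStab P e) with hi₀
  have hE : Nat.card (inertAut P e) = i₀ := card_inertAut
  have hE0 : (i₀ : ℂ) ≠ 0 := Nat.cast_ne_zero.2 relIndex_ne_zero
  have hfree : ∀ α ∈ inertAut P e, ∀ v : P, v ≠ 1 → α v = v → α = 1 :=
    fun α hα v hv h => inertAut_fixed hM hB hm hcyc hα hv h
  have hloc : ∀ ψ, HasLocalCoef M fun v => γ v * dv p M P e ψ v := fun ψ => by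
    by_cases hψ : ψ ∈ B
    · exact hγA ψ hψ
    · intro l
      simp only [coef, dv_eq_zero hM hB hm hcyc hψ, mul_zero, Finset.sum_const_zero]
      exact zero_mem _
  choose x hx using fun (i : orbitSums (inertAut P e)) (ψ : Cfsg.IrrCharacter G) =>
    exists_int_coef_phase hM hB hm hcyc hγi hγσ (hloc ψ) (rep i)
  refine ⟨x, hx, fun ψ v => ?_, fun i j => ?_⟩
  · rw [orbit_expansion hfree (f := fun v => γ v * dv p M P e ψ v)
      (fun α hα v h => gamma_dv_invariant hM hB hm hcyc hγE ψ hα v h) v]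
    simp only [hx]
  have hx0 : ∀ i ψ, ψ ∉ B → x i ψ = 0 := fun i ψ hψ => by
    have h := hx i ψ
    simp only [coef, dv_eq_zero hM hB hm hcyc hψ, mul_zero, Finset.sum_const_zero] at h
    exact_mod_cast h.symm
  let A : orbitSums (inertAut P e) → G → ℂ :=
    fun i => H22.star p M (P, e) (ext0 (gramFun γ (dv p M P e χ₀) i₀ i)) (χ₀ : G → ℂ)
  have hst : ∀ i, PairStable p (P, e) (ext0 (gramFun γ (dv p M P e χ₀) i₀ i)) := fun i =>
    pairStable_of_invariant hM hB hm hcyc fun α hα v =>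
      gramFun_invariant hM hB hm hcyc hγE χ₀ i₀ i hα v
  have hq : (Nat.card P : ℂ) * (i₀ : ℂ) ≠ 0 := mul_ne_zero card_ne_zero' hE0
  have hA : ∀ i (ψ : Cfsg.IrrCharacter G), Cfsg.classInner (A i) (ψ : G → ℂ) = (x i ψ : ℂ) := fun i ψ => by
    refine mul_left_cancel₀ hq ?_
    rw [classInner_star_eq hM hB hm hcyc (hst i) (by rw [ext0_one, gramFun_one]) χ₀ ψ]
    have h := congrArg conj (sum_orbit_conj_mul (f := fun v => γ v * dv p M P e ψ v)
      (fun α hα v h => gamma_dv_invariant hM hB hm hcyc hγE ψ hα v h) i)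
    rw [map_sum, map_mul, map_mul, map_natCast, map_natCast, hx, map_intCast, hE] at h
    rw [← h]
    refine (Finset.sum_congr rfl fun v _ => ?_).trans (Finset.sum_congr (by ext; simp)
      fun _ _ => rfl)
    rw [ext0_coe, gramFun_coe, ← dv, ← dv]
    simp only [map_mul, map_sub, map_natCast, Complex.conj_conj]
    field_simp [hd0 v]
  have h1 : Cfsg.classInner (A i) (A j) = ∑ ψ ∈ blockFinset B, (x i ψ : ℂ) * (x j ψ : ℂ) := by
    conv_lhs => rw [H26.class_function_expansion (A i)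
      (H22.isClassFunction_star (hst i) (H26.irr_isClassFunction χ₀))]
    rw [H26.classInner_sum_left]
    refine ((Finset.sum_congr rfl fun ψ _ => ?_).trans (Finset.sum_subset (Finset.subset_univ _)
      fun ψ _ hψ => by rw [hx0 i ψ (fun h => hψ (mem_blockFinset.2 h)), Int.cast_zero,
        zero_mul]).symm)
    rw [H26.classInner_smul_left, H26.classInner_comm (A j) ψ.1, hA, hA, map_intCast]
  have h2 : Cfsg.classInner (A i) (A j) = (i₀ : ℂ) + if i = j then 1 else 0 := by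
    refine mul_left_cancel₀ hq ?_
    rw [H40.StarNorm.classInner_star_star hM _ _ (H26.irr_isClassFunction χ₀)
        (H26.irr_isClassFunction χ₀),
      show (fun g => ext0 (gramFun γ (dv p M P e χ₀) i₀ i) g *
          conj (ext0 (gramFun γ (dv p M P e χ₀) i₀ j) g)) =
        ext0 (fun v : P => gramFun γ (dv p M P e χ₀) i₀ i v *
          conj (gramFun γ (dv p M P e χ₀) i₀ j v)) from
          funext fun g => by unfold ext0; split_ifs <;> simp,
      classInner_star_eq hM hB hm hcyc (pairStable_of_invariant hM hB hm hcyc fun α hα v => by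
          rw [gramFun_invariant hM hB hm hcyc hγE χ₀ i₀ i hα,
            gramFun_invariant hM hB hm hcyc hγE χ₀ i₀ j hα])
        (by rw [ext0_one, gramFun_one, zero_mul]) χ₀ χ₀]
    have ho := sum_orbit_mul hfree i j
    rw [hE] at ho
    refine Eq.trans ?_ (ho.trans (by split_ifs <;> rfl))
    refine (Finset.sum_congr rfl fun v _ => ?_).trans (Finset.sum_congr (by ext; simp)
      fun _ _ => rfl)
    rw [ext0_coe, gramFun_coe, gramFun_coe, ← dv]
    have hd' : conj (dv p M P e χ₀ v) ≠ 0 := by simpa using hd0 v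
    simp only [map_div₀, map_mul, map_sub, map_natCast, Complex.conj_conj]
    field_simp [hd0 v, hd']
    linear_combination (i.1 v - (i₀ : ℂ)) * (conj (j.1 v) - (i₀ : ℂ)) * hγn v
  have h := h1.symm.trans h2
  split_ifs at h ⊢ <;> exact_mod_cast h

/-- The values of a block with cyclic defect group. -/
theorem exists_values (hP1 : P ≠ ⊥) :
    ∃ (γ : {x : P // x ≠ 1} → ℂ) (X : Set (Cfsg.IrrCharacter G))
      (d : Cfsg.IrrCharacter G → ℤ) (d₀ : ℤ),
      (∀ v, IsIntegral ℤ (γ v)) ∧ (∀ v, γ v * conj (γ v) = 1) ∧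
      Shape (inertAut P e) ((Subgroup.centralizer (P : Set G)).relIndex (pairStab P e)) B
        (fun χ v => γ v * dv p M P e χ v) X d d₀ ∧
      Cfsg.blockRank p B = (Subgroup.centralizer (P : Set G)).relIndex (pairStab P e) := by
  have := isMulComm hM hB hm hcyc
  set i₀ := (Subgroup.centralizer (P : Set G)).relIndex (pairStab P e) with hi₀
  have hE : Nat.card (inertAut P e) = i₀ := card_inertAut
  have hE0 : (i₀ : ℂ) ≠ 0 := Nat.cast_ne_zero.2 relIndex_ne_zero
  have hfree : ∀ α ∈ inertAut P e, ∀ v : P, v ≠ 1 → α v = v → α = 1 :=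
    fun α hα v hv h => inertAut_fixed hM hB hm hcyc hα hv h
  obtain ⟨χ₀, hχ₀, h0, -⟩ := H42.exists_height_zero (p := p) hB
  obtain ⟨γ, hγi, hγn, hγE, hγA, hγσ⟩ := exists_phase hM hB hm hcyc hχ₀ h0
  have hd0 : ∀ v, dv p M P e χ₀ v ≠ 0 := fun v =>
    (dec_ne_zero hM hB hm hcyc hχ₀ h0 (v : P).2 (coe_ne_one v)).2 χ₀ hχ₀
  obtain ⟨x, hx, hexp, hgram⟩ := exists_gram hM hB hm hcyc hγi hγn hγE hγA hγσ hd0
  -- the numbers of characters
  have hrank : i₀ ≤ Cfsg.blockRank p B := H20.Cyclic.relIndex_le_blockRank hM hB hm hcyc hP1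
  have hk := card_eq_blockRank_add hM hB hm hcyc
  have hιc := card_orbitSums hfree
  rw [hE] at hιc
  have hBcard : Nat.card B = Cfsg.blockRank p B + Nat.card (orbitSums (inertAut P e)) := by
    refine Nat.eq_of_mul_eq_mul_left (Nat.pos_of_ne_zero relIndex_ne_zero : 0 < i₀) ?_
    rw [mul_add, mul_comm i₀ (Nat.card (orbitSums _))]
    linarith
  have hScard : (blockFinset B).card = Nat.card B := by
    rw [Nat.card_coe_set_eq, ← Set.ncard_coe_finset]
    congr 1
    ext χ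
    simp
  obtain ⟨v₀, hv₀, hv₀1⟩ := P.bot_or_exists_ne_one.resolve_left hP1
  let V₀ : {x : P // x ≠ 1} := ⟨⟨v₀, hv₀⟩, fun h => hv₀1 (congrArg Subtype.val h)⟩
  obtain ⟨μ, hμ⟩ := H27.exists_linear_ne_one V₀.2
  have : Nonempty (orbitSums (inertAut P e)) :=
    ⟨⟨orbitFun _ μ, mem_orbitSums.2 ⟨μ, fun h => hμ (by rw [h, MonoidHom.one_apply]), rfl⟩⟩⟩
  have hnz : ∀ ψ ∈ blockFinset B, ∃ i : orbitSums (inertAut P e), x i ψ ≠ 0 := fun ψ hψ => by
    by_contra h
    push Not at h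
    have h1 := hexp ψ V₀
    simp only [h, Int.cast_zero, zero_mul, Finset.sum_const_zero, mul_eq_zero] at h1
    rcases h1 with h1 | h1
    · simpa [h1] using hγn V₀
    · exact (dec_ne_zero hM hB hm hcyc hχ₀ h0 hv₀ (coe_ne_one V₀)).2 ψ (mem_blockFinset.1 hψ) h1
  have hpos : ∀ ψ ∈ blockFinset B, (0 : ℤ) < (Cfsg.charDegree (ψ : G → ℂ) : ℤ) := fun ψ _ => by
    refine Int.natCast_pos.2 (Nat.pos_of_ne_zero fun h => H26.irr_one_ne_zero ψ ?_)
    rw [H42.irr_one_eq, h, Nat.cast_zero]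
  have horth : ∀ i : orbitSums (inertAut P e),
      ∑ ψ ∈ blockFinset B, (Cfsg.charDegree (ψ : G → ℂ) : ℤ) * x i ψ = 0 := fun i => by
    have h := fun v => sum_char_mul_dv hM hB hm hcyc (s := (1 : G))
      (by simpa using (Fact.out : p.Prime).not_dvd_one) v
    have h1 : (((∑ ψ ∈ blockFinset B, (Cfsg.charDegree (ψ : G → ℂ) : ℤ) * x i ψ : ℤ)) : ℂ) = 0 := by
      push_cast
      simp only [← hx, ← coef_smul, ← coef_sum]
      rw [coef, Finset.sum_eq_zero fun v _ => ?_, mul_zero]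
      rw [Finset.sum_congr rfl (g := fun ψ : Cfsg.IrrCharacter G =>
        γ v * ((ψ : G → ℂ) 1 * dv p M P e ψ v)) fun ψ _ => by rw [H42.irr_one_eq]; ring,
        ← Finset.mul_sum, h v, mul_zero, mul_zero]
    exact_mod_cast h1
  obtain ⟨hS, a, s, s₀, hinj, haS, hXcard, hs₀, hXs, hax⟩ := gram_structure (e := i₀)
    (blockFinset B) (fun i ψ => x i ψ) hgram hnz
    (by rw [hScard, ← Nat.card_eq_fintype_card, hBcard]; omega)
    (fun ψ => (Cfsg.charDegree (ψ : G → ℂ) : ℤ)) hpos horth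
  -- the shape
  have hBa : ∀ χ, χ ∈ B \ (↑(blockFinset B \ Finset.univ.image a) : Set (Cfsg.IrrCharacter G)) ↔
      ∃ j, a j = χ := fun χ => by
    simp only [Set.mem_sdiff, Finset.coe_sdiff, Finset.mem_coe, mem_blockFinset, Finset.mem_image,
      Finset.mem_univ, true_and, not_and, not_not]
    exact ⟨fun h => h.2 h.1, fun h => ⟨by
      obtain ⟨j, rfl⟩ := h
      exact mem_blockFinset.1 (haS j), fun _ => h⟩⟩
  have hDa : ∀ j v, γ v * dv p M P e (a j) v = (s₀ : ℂ) * j.1 v := fun j v => by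
    rw [hexp, Finset.sum_eq_single j (fun i _ hij => by rw [hax, if_neg hij, Int.cast_zero, zero_mul])
      (fun h => absurd (Finset.mem_univ _) h), hax, if_pos rfl]
  have hsq : (s₀ : ℂ) * (s₀ : ℂ) = 1 := by rcases hs₀ with h | h <;> simp [h]
  refine ⟨γ, ↑(blockFinset B \ Finset.univ.image a), fun c => - s c, s₀, hγi, hγn,
    ⟨fun χ hχ => mem_blockFinset.1 (Finset.mem_sdiff.1 hχ).1,
      by rw [Set.ncard_coe_finset]; exact hXcard,
      fun χ hχ => ?_, hs₀, fun χ hχ => funext fun v => ?_,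
      fun χ hχ => ?_, fun χ hχ χ' hχ' he => ?_, fun f hf => ?_⟩, ?_⟩
  · rcases (hXs χ hχ).1 with h | h <;> simp [h]
  · rw [hexp, Finset.sum_congr rfl (g := fun i : orbitSums (inertAut P e) => (s χ : ℂ) * i.1 v)
      fun i _ => by rw [(hXs χ hχ).2 i], ← Finset.mul_sum, sum_orbitSums hfree]
    push_cast
    ring
  · obtain ⟨j, rfl⟩ := (hBa χ).1 hχ
    show (fun v => (s₀ : ℂ) * (γ v * dv p M P e (a j) v)) ∈ _
    rw [show (fun v => (s₀ : ℂ) * (γ v * dv p M P e (a j) v)) = j.1 from funext fun v => by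
      rw [hDa, ← mul_assoc, hsq, one_mul]]
    exact j.2
  · obtain ⟨j, rfl⟩ := (hBa χ).1 hχ
    obtain ⟨k, rfl⟩ := (hBa χ').1 hχ'
    refine congrArg a (Subtype.ext (funext fun v => ?_))
    have h := congrFun he v
    dsimp only at h
    rwa [hDa, hDa, ← mul_assoc, hsq, one_mul, ← mul_assoc, hsq, one_mul] at h
  · exact ⟨a ⟨f, hf⟩, (hBa _).2 ⟨_, rfl⟩, funext fun v => by
      dsimp only
      rw [hDa, ← mul_assoc, hsq, one_mul]⟩
  · rw [hScard, hBcard, ← Nat.card_eq_fintype_card] at hS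
    omega

end Cfsg.Agent.H57.Cyclic
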